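/-
Helper library (helper23): elementary computations used for Bender–Glauberman 4.x
(`p`-groups of rank two equal to their commutator with an operator group of odd order).
-/
import Cfsg.Agent.Lib.Helper24.FpfCentral
import Cfsg.Agent.Lib.Helper24.Rank2Cube
import Cfsg.Agent.Lib.Helper29.NormalRankTwo

set_option autoImplicit false

namespace Cfsg.Agent.Lib.Helper23R

open Subgroup
open scoped commutatorElement

variable {G : Type*} [Group G]

/-- if `x w x⁻¹ = c w` and `c` commutes with `x`, then `x ^ k w x ^ -k = c ^ k w`. -/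
theorem conj_pow_left {x w c : G} (h : x * w * x⁻¹ = c * w) (hc : Commute c x) (k : ℕ) :
    x ^ k * w * (x ^ k)⁻¹ = c ^ k * w := by
  induction k with
  | zero => simp
  | succ k ih =>
    have h1 : x ^ (k + 1) * w * (x ^ (k + 1))⁻¹ = x * (x ^ k * w * (x ^ k)⁻¹) * x⁻¹ := by
      rw [pow_succ']; group
    have h2 : x * (c ^ k * w) * x⁻¹ = c ^ k * (x * w * x⁻¹) := by
      have h3 := (hc.pow_left k).eq
      calc x * (c ^ k * w) * x⁻¹ = (x * c ^ k) * w * x⁻¹ := by group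
        _ = (c ^ k * x) * w * x⁻¹ := by rw [h3]
        _ = _ := by group
    rw [h1, ih, h2, h, ← mul_assoc, ← pow_succ]

/-- conjugation form of the commutator -/
theorem conj_eq_comm_mul (x w : G) : x * w * x⁻¹ = ⁅x, w⁆ * w := by
  rw [commutatorElement_def]; group

theorem commute_of_conj_eq {x w : G} (h : x * w * x⁻¹ = w) : Commute x w := by
  have : x * w = w * x := by
    calc x * w = (x * w * x⁻¹) * x := by group
      _ = w * x := by rw [h]
  exact this

theorem conj_eq_of_commute {x w : G} (h : Commute x w) : x * w * x⁻¹ = w := by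
  rw [h.eq]; group

/-- adjusting `x` by a power of `w'` to make it commute with `w`. -/
theorem commute_pow_mul {x w w' ζ ξ : G} (h' : w' * w * w'⁻¹ = ζ * w) (hζ : Commute ζ w')
    (hx : x * w * x⁻¹ = ξ * w) (hξ : Commute ξ w') (k : ℕ) (hk : ξ * ζ ^ k = 1) :
    Commute (w' ^ k * x) w := by
  apply commute_of_conj_eq
  have h1 := conj_pow_left h' hζ k
  have h2 := (hξ.pow_right k).eq
  calc w' ^ k * x * w * (w' ^ k * x)⁻¹ = w' ^ k * (x * w * x⁻¹) * (w' ^ k)⁻¹ := by group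
    _ = (w' ^ k * ξ) * w * (w' ^ k)⁻¹ := by rw [hx]; group
    _ = ξ * (w' ^ k * w * (w' ^ k)⁻¹) := by rw [← h2]; group
    _ = (ξ * ζ ^ k) * w := by rw [h1]; group
    _ = w := by rw [hk, one_mul]

theorem comm_pow_left_mem {N : Subgroup G} {x y : G} (hx : x ∈ normalizer (N : Set G))
    (h : ⁅x, y⁆ ∈ N) (k : ℕ) : ⁅x ^ k, y⁆ ∈ N := by
  induction k with
  | zero => simp
  | succ k ih =>
    have h1 : ⁅x ^ (k + 1), y⁆ = x * ⁅x ^ k, y⁆ * x⁻¹ * ⁅x, y⁆ := by
      rw [pow_succ']; simp only [commutatorElement_def]; group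
    rw [h1]
    exact N.mul_mem ((mem_normalizer_iff.1 hx _).1 ih) h

theorem comm_swap_mem {N : Subgroup G} {x y : G} (h : ⁅x, y⁆ ∈ N) : ⁅y, x⁆ ∈ N := by
  rw [← commutatorElement_inv]; exact N.inv_mem h

theorem comm_pow_right_mem {N : Subgroup G} {x y : G} (hy : y ∈ normalizer (N : Set G))
    (h : ⁅x, y⁆ ∈ N) (k : ℕ) : ⁅x, y ^ k⁆ ∈ N :=
  comm_swap_mem (comm_pow_left_mem hy (comm_swap_mem h) k)

theorem exists_pow_eq_zpow [Finite G] (x : G) (i : ℤ) : ∃ n : ℕ, x ^ i = x ^ n := by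
  have h : x ^ i ∈ Submonoid.powers x := by
    rw [mem_powers_iff_mem_zpowers]; exact zpow_mem (mem_zpowers x) i
  obtain ⟨n, hn⟩ := h
  exact ⟨n, hn.symm⟩

/-- a subgroup of index `p`, normalized by an element `x` outside of it. -/
theorem exists_pow_mul_of_card [Finite G] {p : ℕ} (hp : p.Prime) {N H : Subgroup G} (hNH : N ≤ H)
    (hcard : Nat.card H = p * Nat.card N) {x : G} (hxH : x ∈ H) (hxN : x ∉ N)
    (hx : x ∈ normalizer (N : Set G)) : ∀ h ∈ H, ∃ i : ℕ, ∃ n ∈ N, h = x ^ i * n := by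
  set M := zpowers x ⊔ N with hM
  have hMH : M ≤ H := sup_le (by rw [zpowers_le]; exact hxH) hNH
  have hNM : N ≤ M := le_sup_right
  have hxM : x ∈ M := (le_sup_left : zpowers x ≤ M) (mem_zpowers x)
  obtain ⟨k, hk⟩ := card_dvd_of_le hNM
  have hNpos : 0 < Nat.card N := Nat.card_pos
  have h1 : k ∣ p := by
    have h2 := card_dvd_of_le hMH
    rw [hk, hcard, mul_comm p] at h2
    exact Nat.dvd_of_mul_dvd_mul_left hNpos h2
  have hMeq : M = H := by
    rcases (Nat.dvd_prime hp).1 h1 with h | h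
    · exfalso
      rw [h, mul_one] at hk
      have := eq_of_le_of_card_ge hNM hk.le
      exact hxN (this ▸ hxM)
    · apply eq_of_le_of_card_ge hMH
      rw [hk, hcard, h, mul_comm]
  intro h hh
  rw [← hMeq] at hh
  have h3 : (h : G) ∈ ((zpowers x ⊔ N : Subgroup G) : Set G) := hh
  rw [coe_mul_of_left_le_normalizer_right (zpowers x) N (by rw [zpowers_le]; exact hx)] at h3
  obtain ⟨y, hy, n, hn, rfl⟩ := Set.mem_mul.1 h3
  obtain ⟨i, rfl⟩ := mem_zpowers_iff.1 hy
  obtain ⟨j, hj⟩ := exists_pow_eq_zpow x i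
  exact ⟨j, n, hn, by simp only [hj]⟩

theorem exists_pow_of_card_prime [Finite G] {p : ℕ} (hp : p.Prime) {Z : Subgroup G}
    (hcard : Nat.card Z = p) {ζ : G} (hζ : ζ ∈ Z) (h1 : ζ ≠ 1) : ∀ ξ ∈ Z, ∃ k : ℕ, ξ = ζ ^ k := by
  intro ξ hξ
  obtain ⟨i, n, hn, h⟩ := exists_pow_mul_of_card hp (bot_le : (⊥ : Subgroup G) ≤ Z)
    (by rw [card_bot, mul_one]; exact hcard) hζ (by rwa [mem_bot])
    (Cfsg.Agent.Lib.Helper24.mem_normalizer_bot ζ) ξ hξ
  rw [mem_bot] at hn
  exact ⟨i, by rw [h, hn, mul_one]⟩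

/-- in a cyclic group whose order is divisible by `p`, an element which is not a `p`-th power does
not have order dividing `|C| / p`. -/
theorem pow_ne_one_of_not_pow [Finite G] {p : ℕ} {C : Subgroup G} (hC : IsCyclic C) {N' : ℕ}
    (hN : Nat.card C = p * N') {x : G} (hx : x ∈ C) (hnp : ∀ c ∈ C, x ≠ c ^ p) : x ^ N' ≠ 1 := by
  intro h
  obtain ⟨c₀, hc₀⟩ := IsCyclic.exists_generator (α := C)
  obtain ⟨j, hj⟩ := mem_zpowers_iff.1 (hc₀ ⟨x, hx⟩)
  obtain ⟨n, hn⟩ := exists_pow_eq_zpow c₀ j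
  rw [hn] at hj
  have hord : orderOf c₀ = p * N' := by
    rw [← hN]; exact orderOf_eq_card_of_forall_mem_zpowers hc₀
  have hN'pos : 0 < N' := by
    rcases Nat.eq_zero_or_pos N' with h0 | h0
    · rw [h0, mul_zero] at hN
      exact absurd hN Nat.card_pos.ne'
    · exact h0
  have h1 : c₀ ^ (n * N') = 1 := by
    rw [pow_mul, hj]; exact Subtype.ext h
  have h2 := orderOf_dvd_of_pow_eq_one h1
  rw [hord] at h2
  obtain ⟨m, hm⟩ := Nat.dvd_of_mul_dvd_mul_right hN'pos h2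
  apply hnp (c₀ ^ m : C) (c₀ ^ m : C).2
  have h3 : (⟨x, hx⟩ : C) = (c₀ ^ m) ^ p := by rw [← hj, hm, mul_comm, pow_mul]
  exact congrArg Subtype.val h3

end Cfsg.Agent.Lib.Helper23R
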