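/-
Helper library (helper23): Bender–Glauberman 4.x, the configuration `Ω₁(R)` nonabelian of order `p ^ 3`.
Basic facts and the good case `R = Ω₁(R) C_R(Ω₁(R))`.
-/
import Cfsg.Agent.Lib.Helper23.R2a

set_option autoImplicit false
set_option linter.unusedSectionVars false

namespace Cfsg.Agent.Lib.Helper23R

open Subgroup Cfsg.Agent.Lib.Helper24 Cfsg.Agent.Lib.Helper29
open scoped commutatorElement

variable {G : Type*} [Group G]

/-- `T` is the set of elements of order dividing `p` of the `p`-group `R`; it is a nonabelian subgroup of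
order `p ^ 3`. -/
structure Cfg (p : ℕ) (R T : Subgroup G) : Prop where
  hR : IsPGroup p R
  hTR : T ≤ R
  mem_T : ∀ x ∈ R, x ^ p = 1 → x ∈ T
  pow_T : ∀ x ∈ T, x ^ p = 1
  card_T : Nat.card T = p ^ 3
  nc : ∃ t₁ ∈ T, ∃ t₂ ∈ T, ¬ Commute t₁ t₂

/-- the centre of `T` -/
def ZT (T : Subgroup G) : Subgroup G := T ⊓ centralizer (T : Set G)

/-- the centralizer of `T` in `R` -/
def CT (R T : Subgroup G) : Subgroup G := R ⊓ centralizer (T : Set G)

theorem ZT_le (T : Subgroup G) : ZT T ≤ T := inf_le_left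

theorem CT_le (R T : Subgroup G) : CT R T ≤ R := inf_le_left

theorem le_normalizer_inf_R {A U V : Subgroup G} (hU : A ≤ normalizer (U : Set G))
    (hV : A ≤ normalizer (V : Set G)) : A ≤ normalizer ((U ⊓ V : Subgroup G) : Set G) := by
  rw [le_normalizer_iff]
  intro a ha x hx
  exact ⟨(le_normalizer_iff.mp hU) a ha x hx.1, (le_normalizer_iff.mp hV) a ha x hx.2⟩

theorem normalizer_le_ZT (T : Subgroup G) :
    normalizer (T : Set G) ≤ normalizer ((ZT T : Subgroup G) : Set G) :=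
  le_normalizer_inf_R le_rfl (normalizer_le_normalizer_centralizer T)

theorem commute_of_mem_ZT {T : Subgroup G} {z u : G} (hz : z ∈ ZT T) (hu : u ∈ T) : Commute z u :=
  ((mem_centralizer_iff.1 hz.2) u hu).symm

variable [Finite G] {p : ℕ} [Fact p.Prime] {R T : Subgroup G}

namespace Cfg

theorem normalizer_le (h : Cfg p R T) : normalizer (R : Set G) ≤ normalizer (T : Set G) := by
  rw [le_normalizer_iff]
  intro g hg x hx
  apply h.mem_T _ ((mem_normalizer_iff.1 hg x).1 (h.hTR hx))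
  rw [conj_pow, h.pow_T x hx]; simp

theorem normalizer_le_Z (h : Cfg p R T) :
    normalizer (R : Set G) ≤ normalizer ((ZT T : Subgroup G) : Set G) :=
  h.normalizer_le.trans (normalizer_le_ZT T)

theorem normalizer_le_C (h : Cfg p R T) :
    normalizer (R : Set G) ≤ normalizer ((CT R T : Subgroup G) : Set G) :=
  le_normalizer_inf_R le_rfl (h.normalizer_le.trans (normalizer_le_normalizer_centralizer T))

theorem hT (h : Cfg p R T) : IsPGroup p T := h.hR.to_le h.hTR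

/-- a subgroup of `T` containing two non-commuting elements is `T`. -/
theorem eq_of_mem (h : Cfg p R T) {D : Subgroup G} (hD : D ≤ T) {t₁ t₂ : G} (h1 : t₁ ∈ D)
    (h2 : t₂ ∈ D) (hnc : ¬ Commute t₁ t₂) : D = T := by
  have hp : p.Prime := Fact.out
  have hdvd := card_dvd_of_le hD
  rw [h.card_T] at hdvd
  obtain ⟨k, hk, hcard⟩ := (Nat.dvd_prime_pow hp).1 hdvd
  by_cases hk2 : k ≤ 2
  · exfalso
    apply hnc
    have h3 := comm_of_card_le_sq (h.hT.to_le hD)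
      (by rw [hcard]; exact Nat.pow_le_pow_right hp.pos hk2) ⟨t₁, h1⟩ ⟨t₂, h2⟩
    exact congrArg Subtype.val h3
  · have hk3 : k = 3 := by omega
    apply eq_of_le_of_card_ge hD
    rw [hcard, h.card_T, hk3]

theorem card_Z (h : Cfg p R T) : Nat.card (ZT T) = p := by
  have hp : p.Prime := Fact.out
  obtain ⟨t₁, ht₁, t₂, ht₂, hnc⟩ := h.nc
  have hTbot : ¬ T ≤ ⊥ := by
    intro hb
    apply hnc
    rw [mem_bot.1 (hb ht₁)]; exact Commute.one_left _
  obtain ⟨f, hfT, hf1, hf⟩ := exists_central_mod (P := T) (W := T) (E := ⊥) h.hT.isNilpotent le_rfl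
    le_normalizer hTbot
  have hfZ : f ∈ ZT T := by
    refine ⟨hfT, mem_centralizer_iff.2 fun g hg => ?_⟩
    exact (commutatorElement_eq_one_iff_mul_comm.1 (mem_bot.1 (hf g hg))).symm
  have ht₁Z : t₁ ∉ ZT T := fun hz => hnc (commute_of_mem_ZT hz ht₂)
  have hdvd := card_dvd_of_le (ZT_le T)
  rw [h.card_T] at hdvd
  obtain ⟨k, hk, hcard⟩ := (Nat.dvd_prime_pow hp).1 hdvd
  interval_cases k
  · exfalso
    rw [pow_zero, card_eq_one] at hcard
    rw [hcard] at hfZ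
    exact hf1 hfZ
  · rw [hcard, pow_one]
  · exfalso
    obtain ⟨i, n, hn, h3⟩ := exists_pow_mul_of_card hp (ZT_le T)
      (by rw [hcard, h.card_T]; ring) ht₁ ht₁Z (normalizer_le_ZT T (le_normalizer ht₁)) t₂ ht₂
    apply hnc
    rw [h3]
    exact ((Commute.refl t₁).pow_right i).mul_right (commute_of_mem_ZT hn ht₁).symm
  · exfalso
    have h4 : ZT T = T := eq_of_le_of_card_ge (ZT_le T) (by rw [hcard, h.card_T])
    apply ht₁Z
    rw [h4]; exact ht₁

theorem comm_mem_Z (h : Cfg p R T) {x y : G} (hx : x ∈ T) (hy : y ∈ T) : ⁅x, y⁆ ∈ ZT T := by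
  have h1 := class_two_of_card_le h.hT h.card_T.le
  refine ⟨commutator_self_le T (commutator_mem_commutator hx hy), mem_centralizer_iff.2 fun w hw => ?_⟩
  have h2 : ⁅⁅(⟨x, hx⟩ : T), (⟨y, hy⟩ : T)⁆, (⟨w, hw⟩ : T)⁆ ∈ ⁅commutator T, (⊤ : Subgroup T)⁆ :=
    commutator_mem_commutator (commutator_mem_commutator (mem_top _) (mem_top _)) (mem_top _)
  rw [h1, mem_bot, commutatorElement_eq_one_iff_mul_comm] at h2
  exact (congrArg Subtype.val h2).symm

theorem T_le_sectionCent (h : Cfg p R T) : T ≤ sectionCent T (ZT T) := fun _ hx =>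
  ⟨normalizer_le_ZT T (le_normalizer hx), fun _ hw => h.comm_mem_Z hx hw⟩

theorem Z_le_R (h : Cfg p R T) : ZT T ≤ R := (ZT_le T).trans h.hTR

theorem Z_ne_bot (h : Cfg p R T) : ¬ ZT T ≤ ⊥ := by
  intro hb
  have hp : p.Prime := Fact.out
  have h1 := h.card_Z
  rw [le_bot_iff.1 hb, card_bot] at h1
  exact hp.one_lt.ne h1

theorem Z_le_centralizer (h : Cfg p R T) : ZT T ≤ centralizer (R : Set G) := by
  have hp : p.Prime := Fact.out
  obtain ⟨f, hfZ, hf1, hf⟩ := exists_central_mod (P := R) (W := ZT T) (E := ⊥) h.hR.isNilpotent h.Z_le_R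
    (le_normalizer.trans h.normalizer_le_Z) h.Z_ne_bot
  rw [mem_bot] at hf1
  intro ξ hξ
  obtain ⟨k, rfl⟩ := exists_pow_of_card_prime hp h.card_Z hfZ hf1 ξ hξ
  rw [mem_centralizer_iff]
  intro g hg
  have h1 : Commute f g := commutatorElement_eq_one_iff_commute.1 (mem_bot.1 (hf g hg))
  exact (h1.pow_left k).symm.eq

theorem commute_Z (h : Cfg p R T) {z r : G} (hz : z ∈ ZT T) (hr : r ∈ R) : Commute z r :=
  ((mem_centralizer_iff.1 (h.Z_le_centralizer hz)) r hr).symm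

theorem Z_le_C (h : Cfg p R T) : ZT T ≤ CT R T := fun _ hz => ⟨h.Z_le_R hz, hz.2⟩

theorem mem_Z_of_mem_C (h : Cfg p R T) {x : G} (hx : x ∈ CT R T) (hxp : x ^ p = 1) : x ∈ ZT T :=
  ⟨h.mem_T x hx.1 hxp, hx.2⟩

theorem isCyclic_C (h : Cfg p R T) (hp2 : p ≠ 2) : IsCyclic (CT R T) := by
  have hp : p.Prime := Fact.out
  by_contra hnc
  have hnc' : ¬ IsCyclic (⊤ : Subgroup (CT R T)) := fun hc => hnc (topEquiv.isCyclic.1 hc)
  obtain ⟨E, -, -, -, hEp, hE⟩ := exists_normal_elemAb_sq_of_not_isCyclic hp2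
    (h.hR.to_le (CT_le R T)) ⊤ hnc'
  have h1 : E.map (CT R T).subtype ≤ ZT T := by
    rintro _ ⟨a, ha, rfl⟩
    exact h.mem_Z_of_mem_C a.2 (congrArg Subtype.val (hEp a ha))
  have h2 := card_le_of_le h1
  rw [card_map_of_injective (subtype_injective _), hE, h.card_Z] at h2
  have h3 : p ^ 1 < p ^ 2 := Nat.pow_lt_pow_right hp.one_lt (by norm_num)
  rw [pow_one] at h3
  omega

theorem C_le_centralizer (h : Cfg p R T) (hp2 : p ≠ 2) {A : Subgroup G}
    (hA : A ≤ normalizer (R : Set G)) (hRA : ⁅R, A⁆ = R) : CT R T ≤ centralizer (R : Set G) := by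
  have := h.isCyclic_C hp2
  have h1 := commutator_le_centralizer_of_cyclic (CT R T) (normalizer (R : Set G)) h.normalizer_le_C
  have h2 : R ≤ centralizer ((CT R T : Subgroup G) : Set G) := by
    calc R = ⁅R, A⁆ := hRA.symm
      _ ≤ ⁅normalizer (R : Set G), normalizer (R : Set G)⁆ := commutator_mono le_normalizer hA
      _ ≤ _ := h1
  exact le_centralizer_iff.1 h2

/-- elements of `R` acting trivially on `T / Z(T)` lie in `T C_R(T)`. -/
theorem exists_mul (h : Cfg p R T) {x : G} (hx : x ∈ R) (hxZ : x ∈ sectionCent T (ZT T)) :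
    ∃ y ∈ T, ∃ c ∈ CT R T, x = y * c := by
  have hp : p.Prime := Fact.out
  obtain ⟨t₁, ht₁, t₂, ht₂, hnc⟩ := h.nc
  have hζ : ⁅t₁, t₂⁆ ∈ ZT T := h.comm_mem_Z ht₁ ht₂
  have hζ1 : ⁅t₁, t₂⁆ ≠ 1 := fun h1 => hnc (commutatorElement_eq_one_iff_commute.1 h1)
  have hζ' : ⁅t₂, t₁⁆ ∈ ZT T := h.comm_mem_Z ht₂ ht₁
  have hζ'1 : ⁅t₂, t₁⁆ ≠ 1 := fun h1 => hnc (commutatorElement_eq_one_iff_commute.1 h1).symm
  -- first adjustment
  obtain ⟨k, hk⟩ := exists_pow_of_card_prime hp h.card_Z hζ hζ1 _ ((ZT T).inv_mem (hxZ.2 t₂ ht₂))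
  have hc1 : Commute (t₁ ^ k * x) t₂ :=
    commute_pow_mul (conj_eq_comm_mul t₁ t₂) (commute_of_mem_ZT hζ ht₁) (conj_eq_comm_mul x t₂)
      (commute_of_mem_ZT (hxZ.2 t₂ ht₂) ht₁) k (by rw [← hk, mul_inv_cancel])
  have hx1 : t₁ ^ k * x ∈ sectionCent T (ZT T) :=
    mul_mem (pow_mem (h.T_le_sectionCent ht₁) k) hxZ
  -- second adjustment
  obtain ⟨m, hm⟩ := exists_pow_of_card_prime hp h.card_Z hζ' hζ'1 _ ((ZT T).inv_mem (hx1.2 t₁ ht₁))
  have hc2 : Commute (t₂ ^ m * (t₁ ^ k * x)) t₁ :=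
    commute_pow_mul (conj_eq_comm_mul t₂ t₁) (commute_of_mem_ZT hζ' ht₂) (conj_eq_comm_mul _ t₁)
      (commute_of_mem_ZT (hx1.2 t₁ ht₁) ht₂) m (by rw [← hm, mul_inv_cancel])
  have hc3 : Commute (t₂ ^ m * (t₁ ^ k * x)) t₂ := ((Commute.refl t₂).pow_left m).mul_left hc1
  set x₂ := t₂ ^ m * (t₁ ^ k * x) with hx₂
  have hD : T ⊓ centralizer ({x₂} : Set G) = T := by
    apply h.eq_of_mem inf_le_left (t₁ := t₁) (t₂ := t₂) _ _ hnc
    · exact ⟨ht₁, mem_centralizer_singleton_iff.2 hc2.symm.eq⟩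
    · exact ⟨ht₂, mem_centralizer_singleton_iff.2 hc3.symm.eq⟩
  have hx₂C : x₂ ∈ CT R T := by
    refine ⟨mul_mem (pow_mem (h.hTR ht₂) m) (mul_mem (pow_mem (h.hTR ht₁) k) hx),
      mem_centralizer_iff.2 ?_⟩
    intro u hu
    have hu' : u ∈ T ⊓ centralizer ({x₂} : Set G) := by rw [hD]; exact hu
    exact mem_centralizer_singleton_iff.1 hu'.2
  refine ⟨(t₂ ^ m * t₁ ^ k)⁻¹, inv_mem (mul_mem (pow_mem ht₂ m) (pow_mem ht₁ k)), x₂, hx₂C, ?_⟩
  rw [hx₂]; group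

theorem commutator_T (h : Cfg p R T) : ⁅T, T⁆ = ZT T := by
  have hp : p.Prime := Fact.out
  obtain ⟨t₁, ht₁, t₂, ht₂, hnc⟩ := h.nc
  apply le_antisymm
  · rw [commutator_le]
    intro x hx y hy
    exact h.comm_mem_Z hx hy
  · intro ξ hξ
    have hζ1 : ⁅t₁, t₂⁆ ≠ 1 := fun h1 => hnc (commutatorElement_eq_one_iff_commute.1 h1)
    obtain ⟨k, rfl⟩ := exists_pow_of_card_prime hp h.card_Z (h.comm_mem_Z ht₁ ht₂) hζ1 ξ hξ
    exact pow_mem (commutator_mem_commutator ht₁ ht₂) k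

/-- the good case. -/
theorem good (h : Cfg p R T) (hp2 : p ≠ 2) (hall : R ≤ sectionCent T (ZT T)) :
    ∃ R₁ R₂ : Subgroup G, R₁ ⊔ R₂ = R ∧ (∀ a ∈ R₁, ∀ b ∈ R₂, a * b = b * a) ∧
        ¬ IsMulCommutative R₁ ∧ Nat.card R₁ = p ^ 3 ∧ Monoid.exponent R₁ = p ∧ IsCyclic R₂ ∧
        Subgroup.closure {x : G | x ∈ R₂ ∧ x ^ p = 1} = ⁅R₁, R₁⁆ := by
  have hp : p.Prime := Fact.out
  obtain ⟨t₁, ht₁, t₂, ht₂, hnc⟩ := h.nc
  refine ⟨T, CT R T, ?_, ?_, ?_, h.card_T, ?_, h.isCyclic_C hp2, ?_⟩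
  · apply le_antisymm (sup_le h.hTR (CT_le R T))
    intro x hx
    obtain ⟨y, hy, c, hc, rfl⟩ := h.exists_mul hx (hall hx)
    exact mul_mem_sup hy hc
  · intro a ha b hb
    exact (mem_centralizer_iff.1 hb.2) a ha
  · intro hc
    apply hnc
    exact congrArg Subtype.val (hc.is_comm.comm ⟨t₁, ht₁⟩ ⟨t₂, ht₂⟩)
  · have h1 : Monoid.exponent T ∣ p := by
      apply Monoid.exponent_dvd_of_forall_pow_eq_one
      intro x
      exact Subtype.ext (h.pow_T x x.2)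
    rcases (Nat.dvd_prime hp).1 h1 with h2 | h2
    · exfalso
      apply hnc
      have h3 := Monoid.exp_eq_one_iff.1 h2
      have h4 : (⟨t₁, ht₁⟩ : T) = 1 := Subsingleton.elim _ _
      have h5 : t₁ = 1 := congrArg Subtype.val h4
      rw [h5]; exact Commute.one_left _
    · exact h2
  · rw [h.commutator_T]
    have h1 : {x : G | x ∈ CT R T ∧ x ^ p = 1} = (ZT T : Set G) := by
      ext x
      constructor
      · rintro ⟨hx, hxp⟩
        exact h.mem_Z_of_mem_C hx hxp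
      · intro hx
        exact ⟨h.Z_le_C hx, h.pow_T x hx.1⟩
    rw [h1, closure_eq]

end Cfg

end Cfsg.Agent.Lib.Helper23R
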