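/-
Helper library (helper23): Bender–Glauberman 4.x, the configuration `Ω₁(R)` nonabelian of order `p ^ 3`.
The bad case `R ≠ Ω₁(R) C_R(Ω₁(R))`: the canonical subgroups `T₁` and `Y = C_R(T₁)`.
-/
import Cfsg.Agent.Lib.Helper23.R2b

set_option autoImplicit false
set_option linter.unusedSectionVars false

namespace Cfsg.Agent.Lib.Helper23R

open Subgroup Cfsg.Agent.Lib.Helper24 Cfsg.Agent.Lib.Helper29
open scoped commutatorElement

variable {G : Type*} [Group G]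

/-- the preimage in `T` of `C_{T/Z}(R)` -/
def T1 (R T : Subgroup G) : Subgroup G := T ⊓ sectionCent R (ZT T)

/-- the centralizer of `T₁` in `R` -/
def YT (R T : Subgroup G) : Subgroup G := R ⊓ centralizer ((T1 R T : Subgroup G) : Set G)

theorem T1_le (R T : Subgroup G) : T1 R T ≤ T := inf_le_left

theorem YT_le (R T : Subgroup G) : YT R T ≤ R := inf_le_left

theorem commute_of_mem_YT {R T : Subgroup G} {y s : G} (hy : y ∈ YT R T) (hs : s ∈ T1 R T) :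
    Commute y s := ((mem_centralizer_iff.1 hy.2) s hs).symm

variable [Finite G] {p : ℕ} [Fact p.Prime] {R T : Subgroup G}

namespace Cfg

theorem Z_le_T1 (h : Cfg p R T) : ZT T ≤ T1 R T := by
  intro z hz
  refine ⟨hz.1, normalizer_le_ZT T (le_normalizer hz.1), fun w hw => ?_⟩
  rw [commutatorElement_eq_one_iff_commute.2 (h.commute_Z hz hw)]
  exact one_mem _

theorem normalizer_le_T1 (h : Cfg p R T) :
    normalizer (R : Set G) ≤ normalizer ((T1 R T : Subgroup G) : Set G) :=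
  le_normalizer_inf_R h.normalizer_le
    ((le_inf le_rfl h.normalizer_le_Z).trans (normalizer_inf_le_normalizer_sectionCent R (ZT T)))

theorem normalizer_le_Y (h : Cfg p R T) :
    normalizer (R : Set G) ≤ normalizer ((YT R T : Subgroup G) : Set G) :=
  le_normalizer_inf_R le_rfl (h.normalizer_le_T1.trans (normalizer_le_normalizer_centralizer _))

theorem card_T1 (h : Cfg p R T) (hbad : ¬ R ≤ sectionCent T (ZT T)) : Nat.card (T1 R T) = p ^ 2 := by
  have hp : p.Prime := Fact.out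
  have hTZ : ¬ T ≤ ZT T := by
    obtain ⟨t₁, ht₁, t₂, ht₂, hnc⟩ := h.nc
    intro hle
    exact hnc (commute_of_mem_ZT (hle ht₁) ht₂)
  obtain ⟨f, hfT, hfZ, hf⟩ := exists_central_mod (P := R) (W := T) (E := ZT T) h.hR.isNilpotent h.hTR
    (le_normalizer.trans h.normalizer_le) hTZ
  have hfT1 : f ∈ T1 R T := ⟨hfT, normalizer_le_ZT T (le_normalizer hfT), hf⟩
  have h1 : ZT T < T1 R T := lt_of_le_of_ne h.Z_le_T1 (fun he => hfZ (he ▸ hfT1))
  have h2 : T1 R T < T := by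
    apply lt_of_le_of_ne (T1_le R T)
    intro he
    apply hbad
    intro g hg
    refine ⟨h.normalizer_le_Z (le_normalizer hg), fun u hu => ?_⟩
    have hu' : u ∈ T1 R T := by rw [he]; exact hu
    exact comm_swap_mem (hu'.2.2 g hg)
  have h3 := card_lt_of_lt h1
  have h4 := card_lt_of_lt h2
  rw [h.card_Z] at h3
  rw [h.card_T] at h4
  have hdvd := card_dvd_of_le (T1_le R T)
  rw [h.card_T] at hdvd
  obtain ⟨k, hk, hcard⟩ := (Nat.dvd_prime_pow hp).1 hdvd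
  rw [hcard] at h3 h4 ⊢
  have h5 : k < 3 := (Nat.pow_lt_pow_iff_right hp.one_lt).1 h4
  have h6 : 1 < k := by
    have : p ^ 1 < p ^ k := by rwa [pow_one]
    exact (Nat.pow_lt_pow_iff_right hp.one_lt).1 this
  have : k = 2 := by omega
  rw [this]

theorem commute_T1 (h : Cfg p R T) (hbad : ¬ R ≤ sectionCent T (ZT T)) {x y : G} (hx : x ∈ T1 R T)
    (hy : y ∈ T1 R T) : Commute x y :=
  congrArg Subtype.val (comm_of_card_le_sq (h.hT.to_le (T1_le R T)) (h.card_T1 hbad).le ⟨x, hx⟩ ⟨y, hy⟩)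

theorem T1_le_Y (h : Cfg p R T) (hbad : ¬ R ≤ sectionCent T (ZT T)) : T1 R T ≤ YT R T := fun _ hx =>
  ⟨h.hTR (T1_le R T hx), mem_centralizer_iff.2 fun _ hs => (h.commute_T1 hbad hs hx).eq⟩

theorem C_le_Y (h : Cfg p R T) : CT R T ≤ YT R T := fun _ hc =>
  ⟨hc.1, mem_centralizer_iff.2 fun s hs => (mem_centralizer_iff.1 hc.2) s (T1_le R T hs)⟩

theorem C_le_sectionCent (h : Cfg p R T) : CT R T ≤ sectionCent T (ZT T) := by
  intro c hc
  refine ⟨h.normalizer_le_Z (le_normalizer hc.1), fun u hu => ?_⟩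
  rw [commutatorElement_eq_one_iff_mul_comm.2 ((mem_centralizer_iff.1 hc.2) u hu).symm]
  exact one_mem _

theorem comm_mem_T1 (h : Cfg p R T) (hbad : ¬ R ≤ sectionCent T (ZT T)) {r u : G} (hr : r ∈ R)
    (hu : u ∈ T) : ⁅r, u⁆ ∈ T1 R T := by
  have hp : p.Prime := Fact.out
  obtain ⟨n, hn⟩ := h.hR ⟨r, hr⟩
  have hn' : r ^ p ^ n = 1 := congrArg Subtype.val hn
  have hcop : (p ^ n).Coprime (p - 1) := by
    apply Nat.Coprime.pow_left
    rw [Nat.coprime_comm]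
    apply Nat.Coprime.symm
    exact (Nat.coprime_self_sub_right hp.one_lt.le).2 (Nat.coprime_one_right p)
  have hidx : (T1 R T).relIndex T = p := by
    have h1 := relIndex_mul_card' (T1_le R T)
    rw [h.card_T1 hbad, h.card_T] at h1
    have h2 : (T1 R T).relIndex T * p ^ 2 = p * p ^ 2 := by rw [h1]; ring
    exact Nat.eq_of_mul_eq_mul_right (pow_pos hp.pos 2) h2
  have h1 := mem_sectionCent_of_coprime p (p ^ n) hcop T (T1 R T) r hn' (T1_le R T)
    (h.hTR.trans (le_normalizer.trans h.normalizer_le_T1)) (h.normalizer_le (le_normalizer hr))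
    (h.normalizer_le_T1 (le_normalizer hr)) hidx
  exact h1.2 u hu

theorem exists_T (h : Cfg p R T) (hbad : ¬ R ≤ sectionCent T (ZT T)) {t : G} (ht : t ∈ T)
    (ht1 : t ∉ T1 R T) : ∀ u ∈ T, ∃ i : ℕ, ∃ s ∈ T1 R T, u = t ^ i * s :=
  exists_pow_mul_of_card Fact.out (T1_le R T) (by rw [h.card_T1 hbad, h.card_T]; ring) ht ht1
    (h.normalizer_le_T1 (le_normalizer (h.hTR ht)))

theorem exists_T1 (h : Cfg p R T) (hbad : ¬ R ≤ sectionCent T (ZT T)) {v : G} (hv : v ∈ T1 R T)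
    (hvZ : v ∉ ZT T) : ∀ s ∈ T1 R T, ∃ i : ℕ, ∃ ζ ∈ ZT T, s = v ^ i * ζ :=
  exists_pow_mul_of_card Fact.out h.Z_le_T1 (by rw [h.card_T1 hbad, h.card_Z]; ring) hv hvZ
    (normalizer_le_ZT T (le_normalizer (T1_le R T hv)))

theorem not_commute (h : Cfg p R T) (hbad : ¬ R ≤ sectionCent T (ZT T)) {t v : G} (ht : t ∈ T)
    (ht1 : t ∉ T1 R T) (hv : v ∈ T1 R T) (hvZ : v ∉ ZT T) : ¬ Commute t v := by
  intro hc
  apply hvZ
  refine ⟨T1_le R T hv, mem_centralizer_iff.2 fun u hu => ?_⟩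
  obtain ⟨i, s, hs, rfl⟩ := h.exists_T hbad ht ht1 u hu
  exact ((hc.pow_left i).mul_left (h.commute_T1 hbad hs hv)).eq

theorem exists_v (h : Cfg p R T) (hbad : ¬ R ≤ sectionCent T (ZT T)) : ∃ v ∈ T1 R T, v ∉ ZT T := by
  have hp : p.Prime := Fact.out
  apply SetLike.not_le_iff_exists.1
  intro hle
  have h1 := card_le_of_le hle
  rw [h.card_T1 hbad, h.card_Z] at h1
  have h3 : p ^ 1 < p ^ 2 := Nat.pow_lt_pow_right hp.one_lt (by norm_num)
  rw [pow_one] at h3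
  omega

theorem exists_t (h : Cfg p R T) (hbad : ¬ R ≤ sectionCent T (ZT T)) : ∃ t ∈ T, t ∉ T1 R T := by
  have hp : p.Prime := Fact.out
  apply SetLike.not_le_iff_exists.1
  intro hle
  have h1 := card_le_of_le hle
  rw [h.card_T1 hbad, h.card_T] at h1
  have h3 : p ^ 2 < p ^ 3 := Nat.pow_lt_pow_right hp.one_lt (by norm_num)
  omega

theorem mem_Y_of_commute (h : Cfg p R T) (hbad : ¬ R ≤ sectionCent T (ZT T)) {v y : G}
    (hv : v ∈ T1 R T) (hvZ : v ∉ ZT T) (hy : y ∈ R) (hc : Commute y v) : y ∈ YT R T := by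
  refine ⟨hy, mem_centralizer_iff.2 fun s hs => ?_⟩
  obtain ⟨i, ζ, hζ, rfl⟩ := h.exists_T1 hbad hv hvZ s hs
  exact ((hc.pow_right i).mul_right (h.commute_Z hζ hy).symm).symm.eq

/-- `R = ⟨t⟩ Y`. -/
theorem exists_pow_mul_mem_Y (h : Cfg p R T) (hbad : ¬ R ≤ sectionCent T (ZT T)) {t : G} (ht : t ∈ T)
    (ht1 : t ∉ T1 R T) {x : G} (hx : x ∈ R) : ∃ j : ℕ, t ^ j * x ∈ YT R T := by
  have hp : p.Prime := Fact.out
  obtain ⟨v, hv, hvZ⟩ := h.exists_v hbad
  have hζ : ⁅t, v⁆ ∈ ZT T := h.comm_mem_Z ht (T1_le R T hv)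
  have hζ1 : ⁅t, v⁆ ≠ 1 := fun h1 =>
    h.not_commute hbad ht ht1 hv hvZ (commutatorElement_eq_one_iff_commute.1 h1)
  have hξ : ⁅x, v⁆ ∈ ZT T := comm_swap_mem (hv.2.2 x hx)
  obtain ⟨k, hk⟩ := exists_pow_of_card_prime hp h.card_Z hζ hζ1 _ ((ZT T).inv_mem hξ)
  have hc1 : Commute (t ^ k * x) v :=
    commute_pow_mul (conj_eq_comm_mul t v) (commute_of_mem_ZT hζ ht) (conj_eq_comm_mul x v)
      (commute_of_mem_ZT hξ ht) k (by rw [← hk, mul_inv_cancel])
  exact ⟨k, h.mem_Y_of_commute hbad hv hvZ (mul_mem (pow_mem (h.hTR ht) k) hx) hc1⟩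

/-- `C_T(T₁) = T₁`. -/
theorem mem_T1_of_mem_Y (h : Cfg p R T) (hbad : ¬ R ≤ sectionCent T (ZT T)) {u : G} (hu : u ∈ T)
    (huY : u ∈ YT R T) : u ∈ T1 R T := by
  by_contra hu1
  obtain ⟨v, hv, hvZ⟩ := h.exists_v hbad
  exact h.not_commute hbad hu hu1 hv hvZ (commute_of_mem_YT huY hv)

/-- an element of `Y` whose commutator with `t` lies in `Z` acts trivially on `T / Z`. -/
theorem mem_sectionCent_of_comm (h : Cfg p R T) (hbad : ¬ R ≤ sectionCent T (ZT T)) {t : G}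
    (ht : t ∈ T) (ht1 : t ∉ T1 R T) {y : G} (hy : y ∈ YT R T) (hyt : ⁅y, t⁆ ∈ ZT T) :
    y ∈ sectionCent T (ZT T) := by
  refine ⟨h.normalizer_le_Z (le_normalizer hy.1), fun u hu => ?_⟩
  obtain ⟨i, s, hs, rfl⟩ := h.exists_T hbad ht ht1 u hu
  have hc : Commute y s := commute_of_mem_YT hy hs
  have h1 : ⁅y, t ^ i * s⁆ = ⁅y, t ^ i⁆ := by
    simp only [commutatorElement_def]
    calc y * (t ^ i * s) * y⁻¹ * (t ^ i * s)⁻¹ = y * t ^ i * (s * y⁻¹) * s⁻¹ * (t ^ i)⁻¹ := by group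
      _ = y * t ^ i * (y⁻¹ * s) * s⁻¹ * (t ^ i)⁻¹ := by rw [hc.symm.inv_right.eq]
      _ = _ := by group
  rw [h1]
  exact comm_pow_right_mem (normalizer_le_ZT T (le_normalizer ht)) hyt i

end Cfg

end Cfsg.Agent.Lib.Helper23R
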