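/-
Helper library (helper23): Bender–Glauberman 4.x, the configuration `Ω₁(R)` nonabelian of order `p ^ 3`.
The bad case `R ≠ Ω₁(R) C_R(Ω₁(R))` is impossible when `R = [R, A]` with `A` of odd order.
-/
import Cfsg.Agent.Lib.Helper23.R2c

set_option autoImplicit false
set_option linter.unusedSectionVars false

namespace Cfsg.Agent.Lib.Helper23R

open Subgroup Cfsg.Agent.Lib.Helper24 Cfsg.Agent.Lib.Helper29
open scoped commutatorElement

variable {G : Type*} [Group G]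

/-- the bad configuration with chosen elements `t ∈ T \ T₁`, `g ∈ Y \ T C`. -/
structure Bad (p : ℕ) (R T : Subgroup G) (t g : G) : Prop where
  cfg : Cfg p R T
  hbad : ¬ R ≤ sectionCent T (ZT T)
  hC : CT R T ≤ centralizer (R : Set G)
  hcyc : IsCyclic (CT R T)
  ht : t ∈ T
  ht1 : t ∉ T1 R T
  hg : g ∈ YT R T
  hgK : g ∉ sectionCent T (ZT T)

theorem mul_pow_mod {N : Subgroup G} {u s : G} (hu : u ∈ normalizer (N : Set G)) (hs : s ∈ N)
    (l : ℕ) : ∃ s' ∈ N, (u * s) ^ l = u ^ l * s' := by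
  induction l with
  | zero => exact ⟨1, one_mem _, by simp⟩
  | succ l ih =>
    obtain ⟨s', hs', h⟩ := ih
    refine ⟨u⁻¹ * s' * u⁻¹⁻¹ * s, mul_mem ((mem_normalizer_iff.1 (inv_mem hu) _).1 hs') hs, ?_⟩
    rw [pow_succ, h, pow_succ]; group

variable [Finite G] {p : ℕ} [Fact p.Prime] {R T : Subgroup G} {t g : G}

namespace Bad

theorem v_mem (b : Bad p R T t g) : ⁅g, t⁆ ∈ T1 R T := b.cfg.comm_mem_T1 b.hbad b.hg.1 b.ht

theorem v_not_mem (b : Bad p R T t g) : ⁅g, t⁆ ∉ ZT T := fun h =>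
  b.hgK (b.cfg.mem_sectionCent_of_comm b.hbad b.ht b.ht1 b.hg h)

theorem commute_g_v (b : Bad p R T t g) : Commute g ⁅g, t⁆ := commute_of_mem_YT b.hg b.v_mem

theorem z_mem (b : Bad p R T t g) : ⁅⁅g, t⁆, t⁆ ∈ ZT T := b.cfg.comm_mem_Z (T1_le R T b.v_mem) b.ht

theorem z_ne_one (b : Bad p R T t g) : ⁅⁅g, t⁆, t⁆ ≠ 1 := fun h =>
  b.cfg.not_commute b.hbad b.ht b.ht1 b.v_mem b.v_not_mem (commutatorElement_eq_one_iff_commute.1 h).symm

theorem conj_g_pow (b : Bad p R T t g) (k : ℕ) : g ^ k * t * (g ^ k)⁻¹ = ⁅g, t⁆ ^ k * t :=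
  conj_pow_left (conj_eq_comm_mul g t) b.commute_g_v.symm k

theorem g_pow_mem_C (b : Bad p R T t g) : g ^ p ∈ CT R T := by
  refine ⟨pow_mem b.hg.1 p, mem_centralizer_iff.2 fun u hu => ?_⟩
  obtain ⟨i, s, hs, rfl⟩ := b.cfg.exists_T b.hbad b.ht b.ht1 u hu
  have h1 : Commute (g ^ p) t := by
    apply commute_of_conj_eq
    rw [b.conj_g_pow p, b.cfg.pow_T _ (T1_le R T b.v_mem), one_mul]
  have h2 : Commute (g ^ p) s := (commute_of_mem_YT b.hg hs).pow_left p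
  exact ((h1.pow_right i).mul_right h2).symm.eq

theorem commute_g_C (b : Bad p R T t g) {c : G} (hc : c ∈ CT R T) : Commute g c :=
  (mem_centralizer_iff.1 (b.hC hc)) g b.hg.1

theorem g_pow_ne (b : Bad p R T t g) : ∀ c ∈ CT R T, g ^ p ≠ c ^ p := by
  intro c hc h
  apply b.hgK
  have hcm : Commute g c⁻¹ := (b.commute_g_C hc).inv_right
  have h1 : (g * c⁻¹) ^ p = 1 := by
    rw [hcm.mul_pow, h, inv_pow, mul_inv_cancel]
  have h2 : g * c⁻¹ ∈ T := b.cfg.mem_T _ (mul_mem b.hg.1 (inv_mem hc.1)) h1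
  have h3 : g = (g * c⁻¹) * c := by group
  rw [h3]
  exact mul_mem (b.cfg.T_le_sectionCent h2) (b.cfg.C_le_sectionCent hc)

theorem p_dvd_card_C (b : Bad p R T t g) : p ∣ Nat.card (CT R T) := by
  have h1 := card_dvd_of_le b.cfg.Z_le_C
  rwa [b.cfg.card_Z] at h1

theorem pow_card_C_of_mem_C (b : Bad p R T t g) {c : G} (hc : c ∈ CT R T) :
    c ^ Nat.card (CT R T) = 1 :=
  congrArg Subtype.val (pow_card_eq_one' (x := (⟨c, hc⟩ : CT R T)))

theorem pow_card_C_of_mem_T (b : Bad p R T t g) {s : G} (hs : s ∈ T) :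
    s ^ Nat.card (CT R T) = 1 := by
  obtain ⟨N', hN'⟩ := b.p_dvd_card_C
  rw [hN', pow_mul, b.cfg.pow_T s hs, one_pow]

theorem e_ne_one (b : Bad p R T t g) : g ^ Nat.card (CT R T) ≠ 1 := by
  obtain ⟨N', hN'⟩ := b.p_dvd_card_C
  have h1 := pow_ne_one_of_not_pow b.hcyc hN' b.g_pow_mem_C b.g_pow_ne
  rwa [hN', pow_mul]

theorem e_mem (b : Bad p R T t g) : g ^ Nat.card (CT R T) ∈ ZT T := by
  obtain ⟨N', hN'⟩ := b.p_dvd_card_C
  apply b.cfg.mem_Z_of_mem_C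
  · rw [hN', pow_mul]; exact pow_mem b.g_pow_mem_C N'
  · rw [← pow_mul, mul_comm, pow_mul]; exact b.pow_card_C_of_mem_C b.g_pow_mem_C

/-- `Y = ⟨g⟩ T₁ C`. -/
theorem exists_Y (b : Bad p R T t g) {y : G} (hy : y ∈ YT R T) :
    ∃ m : ℕ, ∃ s ∈ T1 R T, ∃ c ∈ CT R T, y = g ^ m * (s * c) := by
  obtain ⟨i, ζ, hζ, hi⟩ := b.cfg.exists_T1 b.hbad b.v_mem b.v_not_mem _
    (b.cfg.comm_mem_T1 b.hbad hy.1 b.ht)
  set v := ⁅g, t⁆ with hv
  have hvp : v ^ p = 1 := b.cfg.pow_T _ (T1_le R T b.v_mem)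
  have hp1 : 1 ≤ p := (Fact.out : p.Prime).one_lt.le
  set k := (p - 1) * i with hk
  have hy' : g ^ k * y ∈ YT R T := mul_mem (pow_mem b.hg k) hy
  have hgv : Commute (g ^ k) (v ^ i * ζ) :=
    (commute_of_mem_YT b.hg (mul_mem (pow_mem b.v_mem i) (b.cfg.Z_le_T1 hζ))).pow_left k
  have h1 : g ^ k * y * t * (g ^ k * y)⁻¹ = ζ * t := by
    calc g ^ k * y * t * (g ^ k * y)⁻¹ = g ^ k * (y * t * y⁻¹) * (g ^ k)⁻¹ := by group
      _ = g ^ k * (v ^ i * ζ) * t * (g ^ k)⁻¹ := by rw [conj_eq_comm_mul y t, hi]; group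
      _ = v ^ i * ζ * (g ^ k * t * (g ^ k)⁻¹) := by rw [hgv.eq]; group
      _ = v ^ i * ζ * (v ^ k * t) := by rw [b.conj_g_pow k]
      _ = ζ * (v ^ i * v ^ k) * t := by
          have : Commute (v ^ i) ζ :=
            (commute_of_mem_ZT hζ (T1_le R T b.v_mem)).symm.pow_left i
          rw [this.eq]; group
      _ = ζ * t := by
          have : i + k = p * i := by
            rw [hk]
            obtain ⟨q, rfl⟩ : ∃ q, p = q + 1 := ⟨p - 1, by omega⟩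
            simp; ring
          rw [← pow_add, this, pow_mul, hvp, one_pow, mul_one]
  have h2 : ⁅g ^ k * y, t⁆ ∈ ZT T := by
    have : ⁅g ^ k * y, t⁆ = ζ := by
      rw [commutatorElement_def, h1]; group
    rw [this]; exact hζ
  obtain ⟨u, hu, c, hc, h3⟩ := b.cfg.exists_mul hy'.1
    (b.cfg.mem_sectionCent_of_comm b.hbad b.ht b.ht1 hy' h2)
  have hu1 : u ∈ T1 R T := by
    apply b.cfg.mem_T1_of_mem_Y b.hbad hu
    have : u = g ^ k * y * c⁻¹ := by rw [h3]; group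
    rw [this]
    exact mul_mem hy' (inv_mem (b.cfg.C_le_Y hc))
  obtain ⟨n, hn⟩ := exists_pow_eq_zpow g (-(k : ℤ))
  refine ⟨n, u, hu1, c, hc, ?_⟩
  rw [← hn, ← h3]; simp

end Bad

end Cfsg.Agent.Lib.Helper23R
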