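/-
Helper library (helper23): Bender–Glauberman 4.x, the configuration `Ω₁(R)` nonabelian of order `p ^ 3`.
The eigenvalue computation in the bad case, and the core theorem.
-/
import Cfsg.Agent.Lib.Helper23.R2d

set_option autoImplicit false
set_option linter.unusedSectionVars false

namespace Cfsg.Agent.Lib.Helper23R

open Subgroup Cfsg.Agent.Lib.Helper24 Cfsg.Agent.Lib.Helper29
open scoped commutatorElement

variable {G : Type*} [Group G] [Finite G] {p : ℕ} [Fact p.Prime] {R T : Subgroup G} {t g : G}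

namespace Bad

theorem mem_Y (b : Bad p R T t g) {m : ℕ} {s' c : G} (hs' : s' ∈ T1 R T) (hc : c ∈ CT R T) :
    g ^ m * (s' * c) ∈ YT R T :=
  mul_mem (pow_mem b.hg m) (mul_mem (b.cfg.T1_le_Y b.hbad hs') (b.cfg.C_le_Y hc))

theorem conj_v (b : Bad p R T t g) {l m : ℕ} {s s' c : G} (hs : s ∈ T1 R T) (hs' : s' ∈ T1 R T)
    (hc : c ∈ CT R T) :
    ∃ ζ ∈ ZT T, ⁅g ^ m * (s' * c), t ^ l * s⁆ = ⁅g, t⁆ ^ (m * l) * ζ := by
  have hyY := b.mem_Y (m := m) hs' hc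
  set v := ⁅g, t⁆ with hv
  set y := g ^ m * (s' * c) with hy
  have hvT : v ∈ T := T1_le R T b.v_mem
  have hζ' : ⁅s', t⁆ ∈ ZT T := b.cfg.comm_mem_Z (T1_le R T hs') b.ht
  set ζ' := ⁅s', t⁆ with hζ'def
  have hct : Commute c t := ((mem_centralizer_iff.1 hc.2) t b.ht).symm
  have hgζ : Commute (g ^ m) ζ' := (b.cfg.commute_Z hζ' b.hg.1).symm.pow_left m
  have h1 : y * t * y⁻¹ = (ζ' * v ^ m) * t := by
    calc y * t * y⁻¹ = g ^ m * (s' * (c * t * c⁻¹) * s'⁻¹) * (g ^ m)⁻¹ := by rw [hy]; group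
      _ = g ^ m * (s' * t * s'⁻¹) * (g ^ m)⁻¹ := by rw [conj_eq_of_commute hct]
      _ = g ^ m * ζ' * t * (g ^ m)⁻¹ := by rw [conj_eq_comm_mul s' t, ← hζ'def]; group
      _ = ζ' * (g ^ m * t * (g ^ m)⁻¹) := by rw [hgζ.eq]; group
      _ = ζ' * (v ^ m * t) := by rw [b.conj_g_pow]
      _ = _ := by group
  set w := ζ' * v ^ m with hw
  have hwT : w ∈ T := mul_mem hζ'.1 (pow_mem hvT m)
  have h2 : y * (t ^ l * s) * y⁻¹ = (w * t) ^ l * s := by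
    calc y * (t ^ l * s) * y⁻¹ = (y * t ^ l * y⁻¹) * (y * s * y⁻¹) := by group
      _ = (y * t * y⁻¹) ^ l * s := by rw [conj_pow, conj_eq_of_commute (commute_of_mem_YT hyY hs)]
      _ = _ := by rw [h1]
  have htw : ⁅t, w⁆ ∈ ZT T := b.cfg.comm_mem_Z b.ht hwT
  have h3 := mul_pow_of_commute w t (commute_of_mem_ZT htw hwT) (commute_of_mem_ZT htw b.ht) l
  have hζ'' : ⁅t, w⁆ ^ (l.choose 2) ∈ ZT T := pow_mem htw _
  set ζ'' := ⁅t, w⁆ ^ (l.choose 2) with hζ''def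
  have hc2 : Commute (t ^ l) ζ'' := (commute_of_mem_ZT hζ'' b.ht).symm.pow_left l
  have hc3 : Commute ζ' (v ^ m) := (commute_of_mem_ZT hζ' hvT).pow_right m
  have hc4 : Commute (ζ' ^ l) (v ^ (m * l)) := ((commute_of_mem_ZT hζ' hvT).pow_right _).pow_left l
  refine ⟨ζ' ^ l * ζ'', mul_mem (pow_mem hζ' l) hζ'', ?_⟩
  calc ⁅y, t ^ l * s⁆ = (y * (t ^ l * s) * y⁻¹) * (t ^ l * s)⁻¹ := by rw [commutatorElement_def]
    _ = w ^ l * (t ^ l * ζ'') * (t ^ l)⁻¹ := by rw [h2, h3]; group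
    _ = w ^ l * ζ'' := by rw [hc2.eq]; group
    _ = ζ' ^ l * v ^ (m * l) * ζ'' := by rw [hw, hc3.mul_pow, ← pow_mul]
    _ = _ := by rw [hc4.eq]; group

theorem conj_z (b : Bad p R T t g) {l n : ℕ} {s ζ : G} (hs : s ∈ T1 R T) (hζ : ζ ∈ ZT T) :
    ⁅⁅g, t⁆ ^ n * ζ, t ^ l * s⁆ = ⁅⁅g, t⁆, t⁆ ^ (n * l) := by
  have hz := b.z_mem
  have hvT1 := b.v_mem
  set v := ⁅g, t⁆ with hv
  set z := ⁅v, t⁆ with hzdef
  have hvT : v ∈ T := T1_le R T hvT1
  have hxT1 : v ^ n * ζ ∈ T1 R T := mul_mem (pow_mem hvT1 n) (b.cfg.Z_le_T1 hζ)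
  set x := v ^ n * ζ with hx
  have h1 : x * t * x⁻¹ = z ^ n * t := by
    calc x * t * x⁻¹ = v ^ n * (ζ * t * ζ⁻¹) * (v ^ n)⁻¹ := by rw [hx]; group
      _ = v ^ n * t * (v ^ n)⁻¹ := by rw [conj_eq_of_commute (commute_of_mem_ZT hζ b.ht)]
      _ = _ := conj_pow_left (conj_eq_comm_mul v t) (commute_of_mem_ZT hz hvT) n
  have hc : Commute (z ^ n) t := (commute_of_mem_ZT hz b.ht).pow_left n
  have h2 : x * (t ^ l * s) * x⁻¹ = z ^ (n * l) * (t ^ l * s) := by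
    calc x * (t ^ l * s) * x⁻¹ = (x * t ^ l * x⁻¹) * (x * s * x⁻¹) := by group
      _ = (x * t * x⁻¹) ^ l * s := by rw [conj_pow, conj_eq_of_commute (b.cfg.commute_T1 b.hbad hxT1 hs)]
      _ = _ := by rw [h1, hc.mul_pow, ← pow_mul]; group
  rw [commutatorElement_def, h2]; group

theorem pow_card (b : Bad p R T t g) {m : ℕ} {s' c : G} (hs' : s' ∈ T1 R T) (hc : c ∈ CT R T) :
    (g ^ m * (s' * c)) ^ Nat.card (CT R T) = (g ^ Nat.card (CT R T)) ^ m := by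
  have h1 : Commute g (s' * c) := (commute_of_mem_YT b.hg hs').mul_right (b.commute_g_C hc)
  have h2 : Commute s' c := (mem_centralizer_iff.1 hc.2) s' (T1_le R T hs')
  rw [(h1.pow_left m).mul_pow, h2.mul_pow, b.pow_card_C_of_mem_C hc,
    b.pow_card_C_of_mem_T (T1_le R T hs'), mul_one, mul_one, ← pow_mul, ← pow_mul, mul_comm]

theorem sq_modEq (b : Bad p R T t g) {a : G} (ha : a ∈ normalizer (R : Set G)) {l : ℕ} {s : G}
    (hs : s ∈ T1 R T) (hl : a * t * a⁻¹ = t ^ l * s) : l * l ≡ 1 [MOD p] := by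
  have hp : p.Prime := Fact.out
  obtain ⟨m, s', hs', c, hc, hm⟩ := b.exists_Y
    ((mem_normalizer_iff.1 (b.cfg.normalizer_le_Y ha) g).1 b.hg)
  obtain ⟨ζ, hζ, h1⟩ := b.conj_v (l := l) (m := m) hs hs' hc
  have hz : a * ⁅⁅g, t⁆, t⁆ * a⁻¹ = ⁅⁅g, t⁆, t⁆ ^ (m * l * l) := by
    rw [conjugate_commutatorElement, conjugate_commutatorElement, hl, hm, h1, b.conj_z hs hζ]
  have he : a * g ^ Nat.card (CT R T) * a⁻¹ = (g ^ Nat.card (CT R T)) ^ m := by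
    rw [← conj_pow, hm, b.pow_card hs' hc]
  obtain ⟨j, hj⟩ := exists_pow_of_card_prime hp b.cfg.card_Z b.e_mem b.e_ne_one _ b.z_mem
  have hz' : a * ⁅⁅g, t⁆, t⁆ * a⁻¹ = ⁅⁅g, t⁆, t⁆ ^ m := by
    rw [hj, ← conj_pow, he, ← pow_mul, ← pow_mul (g ^ Nat.card (CT R T)) j m, mul_comm]
  have hord : orderOf ⁅⁅g, t⁆, t⁆ = p := orderOf_eq_prime (b.cfg.pow_T _ b.z_mem.1) b.z_ne_one
  have h2 : m * l * l ≡ m [MOD p] := by
    rw [← hord]
    exact pow_eq_pow_iff_modEq.1 (hz.symm.trans hz')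
  have hpm : ¬ p ∣ m := by
    rintro ⟨m', rfl⟩
    apply b.hgK
    have h3 : a * g * a⁻¹ ∈ sectionCent T (ZT T) := by
      rw [hm, pow_mul]
      exact mul_mem (b.cfg.C_le_sectionCent (pow_mem b.g_pow_mem_C m'))
        (mul_mem (b.cfg.T_le_sectionCent (T1_le R T hs')) (b.cfg.C_le_sectionCent hc))
    exact (mem_normalizer_iff.1 (normalizer_inf_le_normalizer_sectionCent T (ZT T)
      ⟨b.cfg.normalizer_le ha, b.cfg.normalizer_le_Z ha⟩) g).2 h3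
  have hcop : Nat.gcd p m = 1 := (Nat.Prime.coprime_iff_not_dvd hp).2 hpm
  apply Nat.ModEq.cancel_left_of_coprime hcop
  rw [mul_one, ← mul_assoc]
  exact h2

theorem comm_mem_T1 (b : Bad p R T t g) {a : G} (ha : a ∈ normalizer (R : Set G))
    (hodd : Odd (orderOf a)) : ⁅a, t⁆ ∈ T1 R T := by
  have haT1 := b.cfg.normalizer_le_T1 ha
  have htT1 : t ∈ normalizer ((T1 R T : Subgroup G) : Set G) :=
    b.cfg.normalizer_le_T1 (le_normalizer (b.cfg.hTR b.ht))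
  obtain ⟨l, s, hs, hl⟩ := b.cfg.exists_T b.hbad b.ht b.ht1 _
    ((mem_normalizer_iff.1 (b.cfg.normalizer_le ha) t).1 b.ht)
  have hll := b.sq_modEq ha hs hl
  obtain ⟨s₂, hs₂, h2⟩ := mul_pow_mod (pow_mem htT1 l) hs l
  have htll : t ^ (l * l) = t := by
    have h3 : t ^ (l * l) = t ^ 1 := by
      rw [pow_eq_pow_iff_modEq]
      exact hll.of_dvd (orderOf_dvd_of_pow_eq_one (b.cfg.pow_T t b.ht))
    rw [h3, pow_one]
  have h3 : a ^ 2 * t * (a ^ 2)⁻¹ = t * (s₂ * (a * s * a⁻¹)) := by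
    calc a ^ 2 * t * (a ^ 2)⁻¹ = a * (a * t * a⁻¹) * a⁻¹ := by rw [pow_two]; group
      _ = (a * t ^ l * a⁻¹) * (a * s * a⁻¹) := by rw [hl]; group
      _ = (a * t * a⁻¹) ^ l * (a * s * a⁻¹) := by rw [conj_pow]
      _ = _ := by rw [hl, h2, ← pow_mul, htll]; group
  have h4 : ⁅a ^ 2, t⁆ ∈ T1 R T := by
    have h5 : ⁅a ^ 2, t⁆ = t * (s₂ * (a * s * a⁻¹)) * t⁻¹ := by
      rw [commutatorElement_def, h3]
    rw [h5]
    exact (mem_normalizer_iff.1 htT1 _).1 (mul_mem hs₂ ((mem_normalizer_iff.1 haT1 s).1 hs))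
  obtain ⟨k, hk⟩ := hodd
  have h6 := comm_pow_left_mem (pow_mem haT1 2) h4 (k + 1)
  have h7 : (a ^ 2) ^ (k + 1) = a := by
    rw [← pow_mul]
    have : 2 * (k + 1) = orderOf a + 1 := by omega
    rw [this, pow_succ, pow_orderOf_eq_one, one_mul]
  rwa [h7] at h6

/-- the bad case does not occur. -/
theorem false_of_commutator_eq (b : Bad p R T t g) {A : Subgroup G}
    (hA : A ≤ normalizer (R : Set G)) (hodd : Odd (Nat.card A)) (hRA : ⁅R, A⁆ = R) : False := by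
  have hRY : R ≤ normalizer ((YT R T : Subgroup G) : Set G) := le_normalizer.trans b.cfg.normalizer_le_Y
  have h1 : t ∈ sectionCent A (YT R T) := by
    refine ⟨hRY (b.cfg.hTR b.ht), fun a ha => ?_⟩
    apply comm_swap_mem
    apply b.cfg.T1_le_Y b.hbad
    apply b.comm_mem_T1 (hA ha)
    exact hodd.of_dvd_nat (Subgroup.orderOf_dvd_natCard A ha)
  have h2 : YT R T ≤ sectionCent A (YT R T) := by
    intro y hy
    refine ⟨le_normalizer hy, fun a ha => ?_⟩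
    have h3 : ⁅y, a⁆ = y * (a * y⁻¹ * a⁻¹) := by rw [commutatorElement_def]; group
    rw [h3]
    exact mul_mem hy ((mem_normalizer_iff.1 (b.cfg.normalizer_le_Y (hA ha)) _).1 (inv_mem hy))
  have h3 : R ≤ YT R T := by
    calc R = ⁅R, A⁆ := hRA.symm
      _ ≤ YT R T := by
        rw [commutator_le]
        intro x hx a ha
        obtain ⟨j, hj⟩ := b.cfg.exists_pow_mul_mem_Y b.hbad b.ht b.ht1 hx
        have h4 : x = (t ^ j)⁻¹ * (t ^ j * x) := by group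
        have h5 : x ∈ sectionCent A (YT R T) := by
          rw [h4]; exact mul_mem (inv_mem (pow_mem h1 j)) (h2 hj)
        exact h5.2 a ha
  exact b.ht1 (b.cfg.mem_T1_of_mem_Y b.hbad b.ht (h3 (b.cfg.hTR b.ht)))

end Bad

/-- **Core theorem.**  -/
theorem Cfg.core (h : Cfg p R T) (hp2 : p ≠ 2) {A : Subgroup G} (hA : A ≤ normalizer (R : Set G))
    (hodd : Odd (Nat.card A)) (hRA : ⁅R, A⁆ = R) :
    ∃ R₁ R₂ : Subgroup G, R₁ ⊔ R₂ = R ∧ (∀ a ∈ R₁, ∀ b ∈ R₂, a * b = b * a) ∧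
        ¬ IsMulCommutative R₁ ∧ Nat.card R₁ = p ^ 3 ∧ Monoid.exponent R₁ = p ∧ IsCyclic R₂ ∧
        Subgroup.closure {x : G | x ∈ R₂ ∧ x ^ p = 1} = ⁅R₁, R₁⁆ := by
  by_cases hbad : R ≤ sectionCent T (ZT T)
  · exact h.good hp2 hbad
  · exfalso
    obtain ⟨t, ht, ht1⟩ := h.exists_t hbad
    obtain ⟨g₀, hg₀, hg₀K⟩ := SetLike.not_le_iff_exists.1 hbad
    obtain ⟨j, hj⟩ := h.exists_pow_mul_mem_Y hbad ht ht1 hg₀
    have hgK : t ^ j * g₀ ∉ sectionCent T (ZT T) := by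
      intro h1
      apply hg₀K
      have h2 : g₀ = (t ^ j)⁻¹ * (t ^ j * g₀) := by group
      rw [h2]
      exact mul_mem (inv_mem (pow_mem (h.T_le_sectionCent ht) j)) h1
    exact Bad.false_of_commutator_eq
      ⟨h, hbad, h.C_le_centralizer hp2 hA hRA, h.isCyclic_C hp2, ht, ht1, hj, hgK⟩ hA hodd hRA

end Cfsg.Agent.Lib.Helper23R
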