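import Cfsg.Prelude.Def_Balance

set_option autoImplicit false

namespace Cfsg.Agent.Lib.Helper23

/-- `PRankLE` pulls back along injective homomorphisms. -/
theorem pRankLE_of_injective {A B : Type*} [Group A] [Group B] (p k : ℕ) (f : A →* B)
    (hf : Function.Injective f) (h : Cfsg.PRankLE p k B) : Cfsg.PRankLE p k A := by
  intro S hS hexp
  have h1 : IsMulCommutative (S.map f) := by
    refine ⟨⟨?_⟩⟩
    rintro ⟨x, hx⟩ ⟨y, hy⟩
    obtain ⟨a, ha, rfl⟩ := hx
    obtain ⟨b, hb, rfl⟩ := hy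
    have := hS.is_comm.comm ⟨a, ha⟩ ⟨b, hb⟩
    have h2 : a * b = b * a := congrArg Subtype.val this
    apply Subtype.ext
    show f a * f b = f b * f a
    rw [← map_mul, ← map_mul, h2]
  have h2 : ∀ a ∈ S.map f, a ^ p = 1 := by
    rintro _ ⟨a, ha, rfl⟩
    rw [← map_pow, hexp a ha, map_one]
  have h3 := h (S.map f) h1 h2
  rwa [Subgroup.card_map_of_injective hf] at h3

theorem pRankLE_congr {A B : Type*} [Group A] [Group B] (p k : ℕ) (e : A ≃* B) :
    Cfsg.PRankLE p k A ↔ Cfsg.PRankLE p k B :=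
  ⟨pRankLE_of_injective p k e.symm.toMonoidHom e.symm.injective,
   pRankLE_of_injective p k e.toMonoidHom e.injective⟩

end Cfsg.Agent.Lib.Helper23
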