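import Cfsg.Agent.Lib.Helper23.LBal2
import Cfsg.Agent.Lib.Helper1.CoprimeSylow
import Cfsg.Prelude.Def_OddOrderLocal

set_option autoImplicit false

/-! A generic transitivity engine for maximal `A`-invariant `q`-subgroups. -/

namespace Cfsg.Agent.Lib.Helper23

open Subgroup
open scoped Pointwise

variable {G : Type*} [Group G]

theorem conj_smul_eq_cj (c : G) (P : Subgroup G) : MulAut.conj c • P = cj c P := by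
  ext x
  rw [Cfsg.Agent.Lib.Helper1.mem_conj_smul_iff, mem_cj]

/-- `Q` is an `A`-invariant `q`-subgroup. -/
def InvQ (A : Subgroup G) (q : ℕ) (Q : Subgroup G) : Prop :=
  IsPGroup q Q ∧ A ≤ normalizer (Q : Set G)

/-- `Q` is a maximal `A`-invariant `q`-subgroup. -/
def MaxInvQ (A : Subgroup G) (q : ℕ) (Q : Subgroup G) : Prop :=
  InvQ A q Q ∧ ∀ R, InvQ A q R → Q ≤ R → R = Q

theorem cj_mono {c : G} {U V : Subgroup G} (h : U ≤ V) : cj c U ≤ cj c V := map_mono h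

theorem cj_cj_inv (g : G) (K : Subgroup G) : cj g (cj g⁻¹ K) = K := by
  rw [← cj_mul, mul_inv_cancel, cj_one]

theorem InvQ.cj {A : Subgroup G} {q : ℕ} {Q : Subgroup G} (h : InvQ A q Q) {c : G}
    (hc : c ∈ centralizer (A : Set G)) : InvQ A q (cj c Q) := by
  refine ⟨h.1.map _, ?_⟩
  rw [le_normalizer_iff]
  intro a ha x hx
  rw [mem_cj] at hx ⊢
  have hac : a * c = c * a := mem_centralizer_iff.mp hc a ha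
  have hac' : c⁻¹ * a = a * c⁻¹ := by
    calc c⁻¹ * a = c⁻¹ * (a * c) * c⁻¹ := by group
      _ = c⁻¹ * (c * a) * c⁻¹ := by rw [hac]
      _ = a * c⁻¹ := by group
  have hac'' : a⁻¹ * c = c * a⁻¹ := by
    calc a⁻¹ * c = a⁻¹ * (c * a) * a⁻¹ := by group
      _ = a⁻¹ * (a * c) * a⁻¹ := by rw [hac]
      _ = c * a⁻¹ := by group
  have h1 := (le_normalizer_iff.mp h.2) a ha _ hx
  have : c⁻¹ * (a * x * a⁻¹) * c = a * (c⁻¹ * x * c) * a⁻¹ := by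
    calc c⁻¹ * (a * x * a⁻¹) * c = (c⁻¹ * a) * x * (a⁻¹ * c) := by group
      _ = (a * c⁻¹) * x * (c * a⁻¹) := by rw [hac', hac'']
      _ = a * (c⁻¹ * x * c) * a⁻¹ := by group
  rw [this]
  exact h1

theorem MaxInvQ.cj {A : Subgroup G} {q : ℕ} {Q : Subgroup G} (h : MaxInvQ A q Q) {c : G}
    (hc : c ∈ centralizer (A : Set G)) : MaxInvQ A q (cj c Q) := by
  refine ⟨h.1.cj hc, ?_⟩
  intro R hR hle
  have h1 : Q ≤ Helper23.cj c⁻¹ R := by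
    have := cj_mono (c := c⁻¹) hle
    rwa [cj_inv_cj] at this
  have h2 := h.2 _ (hR.cj (inv_mem hc)) h1
  rw [← h2, cj_cj_inv]

variable [Finite G]

theorem exists_maxInvQ_ge {A : Subgroup G} {q : ℕ} {U : Subgroup G} (hU : InvQ A q U) :
    ∃ Q, MaxInvQ A q Q ∧ U ≤ Q := by
  obtain ⟨Q, hUQ, hQmax⟩ := (Set.toFinite {Q : Subgroup G | InvQ A q Q}).exists_le_maximal
    (a := U) hU
  refine ⟨Q, ⟨hQmax.prop, ?_⟩, hUQ⟩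
  intro R hR hQR
  exact le_antisymm (hQmax.le_of_ge hR hQR) hQR

theorem card_lt_card_of_lt {H K : Subgroup G} (h : H < K) : Nat.card H < Nat.card K := by
  apply lt_of_le_of_ne (Subgroup.card_le_of_le h.le)
  intro he
  exact h.ne (Subgroup.eq_of_le_of_card_ge h.le he.ge)

/-- The transitivity engine. -/
theorem transitivity_engine (A 𝒦 : Subgroup G) (q : ℕ) [Fact q.Prime]
    (hsolv : Group.IsSolvable A) (h𝒦 : 𝒦 ≤ centralizer (A : Set G))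
    (Φ : Subgroup G → Prop) (hΦ : ∀ D D', Φ D → D ≤ D' → Φ D')
    (key : ∀ Q₁ Q₂, MaxInvQ A q Q₁ → MaxInvQ A q Q₂ → Φ (Q₁ ⊓ Q₂) → Q₁ ⊓ Q₂ ≠ Q₁ →
      Q₁ ⊓ Q₂ ≠ Q₂ → ∃ H₀ : Subgroup G, A ≤ normalizer (H₀ : Set G) ∧
        (Nat.card A).Coprime (Nat.card H₀) ∧ H₀ ⊓ centralizer (A : Set G) ≤ 𝒦 ∧
        Q₁ ⊓ Q₂ ≤ H₀ ∧ ¬ (H₀ ⊓ Q₁ ≤ Q₁ ⊓ Q₂) ∧ ¬ (H₀ ⊓ Q₂ ≤ Q₁ ⊓ Q₂)) :
    ∀ (n : ℕ) (Q₁ Q₂ : Subgroup G), MaxInvQ A q Q₁ → MaxInvQ A q Q₂ → Φ (Q₁ ⊓ Q₂) →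
      Nat.card G - Nat.card (Q₁ ⊓ Q₂ : Subgroup G) = n → ∃ k ∈ 𝒦, cj k Q₁ = Q₂ := by
  intro n
  induction n using Nat.strong_induction_on with
  | _ n ih =>
    intro Q₁ Q₂ hQ₁ hQ₂ hΦD hn
    have IH : ∀ T₁ T₂ : Subgroup G, MaxInvQ A q T₁ → MaxInvQ A q T₂ →
        ∀ R : Subgroup G, Q₁ ⊓ Q₂ < R → R ≤ T₁ → R ≤ T₂ → ∃ k ∈ 𝒦, cj k T₁ = T₂ := by
      intro T₁ T₂ hT₁ hT₂ R hR h1 h2
      refine ih _ ?_ T₁ T₂ hT₁ hT₂ (hΦ _ _ hΦD (hR.le.trans (le_inf h1 h2))) rfl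
      have h3 : Nat.card (Q₁ ⊓ Q₂ : Subgroup G) < Nat.card (T₁ ⊓ T₂ : Subgroup G) :=
        card_lt_card_of_lt (lt_of_lt_of_le hR (le_inf h1 h2))
      have h4 : Nat.card (T₁ ⊓ T₂ : Subgroup G) ≤ Nat.card G := Subgroup.card_le_card_group _
      omega
    by_cases hD₁ : Q₁ ⊓ Q₂ = Q₁
    · have h1 : Q₁ ≤ Q₂ := inf_eq_left.mp hD₁
      exact ⟨1, one_mem _, by rw [cj_one, hQ₁.2 Q₂ hQ₂.1 h1]⟩
    by_cases hD₂ : Q₁ ⊓ Q₂ = Q₂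
    · have h1 : Q₂ ≤ Q₁ := inf_eq_right.mp hD₂
      exact ⟨1, one_mem _, by rw [cj_one, hQ₂.2 Q₁ hQ₁.1 h1]⟩
    obtain ⟨H₀, hAH, hcop, hC, hDH, hN₁, hN₂⟩ := key Q₁ Q₂ hQ₁ hQ₂ hΦD hD₁ hD₂
    set D := Q₁ ⊓ Q₂ with hD
    have main : ∀ Q : Subgroup G, MaxInvQ A q Q → D ≤ Q → ¬ (H₀ ⊓ Q ≤ D) →
        ∃ S T : Subgroup G, S ≤ H₀ ∧ IsPGroup q S ∧ ¬ q ∣ S.relIndex H₀ ∧
          A ≤ normalizer (S : Set G) ∧ D < H₀ ⊓ Q ∧ H₀ ⊓ Q ≤ S ∧ S ≤ T ∧ MaxInvQ A q T := by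
      intro Q hQ hDQ hN
      have hAR : A ≤ normalizer ((H₀ ⊓ Q : Subgroup G) : Set G) := by
        rw [le_normalizer_iff]
        intro a ha x hx
        exact ⟨(le_normalizer_iff.mp hAH) a ha x hx.1, (le_normalizer_iff.mp hQ.1.2) a ha x hx.2⟩
      obtain ⟨S, hRS, hSH, hSq, hSi, hAS⟩ :=
        Cfsg.Agent.Lib.Helper1.invariant_pSubgroup_le_invariant_sylow A H₀ hAH hcop (Or.inl hsolv) q
          (H₀ ⊓ Q) inf_le_left (hQ.1.1.to_le inf_le_right) hAR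
      obtain ⟨T, hT, hST⟩ := exists_maxInvQ_ge (A := A) (q := q) (U := S) ⟨hSq, hAS⟩
      refine ⟨S, T, hSH, hSq, hSi, hAS, ?_, hRS, hST, hT⟩
      exact lt_of_le_of_ne (le_inf hDH hDQ) (fun h => hN h.ge)
    obtain ⟨S₁, T₁, hS₁H, hS₁q, hS₁i, hAS₁, hDR₁, hRS₁, hST₁, hT₁⟩ := main Q₁ hQ₁ inf_le_left hN₁
    obtain ⟨S₂, T₂, hS₂H, hS₂q, hS₂i, hAS₂, hDR₂, hRS₂, hST₂, hT₂⟩ := main Q₂ hQ₂ inf_le_right hN₂
    obtain ⟨c, hc, hcS⟩ := Cfsg.Agent.Lib.Helper1.invariant_sylow_conj A H₀ hAH hcop (Or.inl hsolv) q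
      S₁ S₂ hS₁H hS₁q hS₁i hS₂H hS₂q hS₂i hAS₁ hAS₂
    rw [conj_smul_eq_cj] at hcS
    have hc𝒦 : c ∈ 𝒦 := hC hc
    obtain ⟨k₁, hk₁, e1⟩ := IH Q₁ T₁ hQ₁ hT₁ _ hDR₁ inf_le_right (hRS₁.trans hST₁)
    obtain ⟨k₃, hk₃, e3⟩ := IH (cj c T₁) T₂ (hT₁.cj (h𝒦 hc𝒦)) hT₂ _ hDR₂
      (hRS₂.trans (hcS ▸ cj_mono hST₁)) (hRS₂.trans hST₂)
    obtain ⟨k₄, hk₄, e4⟩ := IH Q₂ T₂ hQ₂ hT₂ _ hDR₂ inf_le_right (hRS₂.trans hST₂)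
    refine ⟨k₄⁻¹ * (k₃ * (c * k₁)), mul_mem (inv_mem hk₄) (mul_mem hk₃ (mul_mem hc𝒦 hk₁)), ?_⟩
    rw [cj_mul, cj_mul, cj_mul, e1, e3, ← e4, cj_inv_cj]

/-! ### translation to the prelude's notions -/

theorem isPGroup_iff_primes {q : ℕ} [hq : Fact q.Prime] {Q : Subgroup G} :
    (∀ p : ℕ, p.Prime → p ∣ Nat.card Q → p ∈ ({q} : Set ℕ)) ↔ IsPGroup q Q := by
  constructor
  · intro h
    exact IsPGroup.of_card (Nat.eq_prime_pow_of_unique_prime_dvd Nat.card_pos.ne'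
      (fun {d} hd hdvd => h d hd hdvd))
  · intro h p hp hdvd
    obtain ⟨k, hk⟩ := IsPGroup.iff_card.mp h
    rw [hk] at hdvd
    exact (Nat.prime_dvd_prime_iff_eq hp hq.out).mp (hp.dvd_of_dvd_pow hdvd)

theorem mem_invSubgroups_top_iff {A Q : Subgroup G} {q : ℕ} [Fact q.Prime] :
    Q ∈ Cfsg.invSubgroups ⊤ A {q} ↔ InvQ A q Q := by
  unfold Cfsg.invSubgroups InvQ
  rw [Set.mem_ofPred_eq, isPGroup_iff_primes]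
  exact ⟨fun h => ⟨h.2.1, h.2.2⟩, fun h => ⟨le_top, h.1, h.2⟩⟩

theorem mem_maxInvSubgroups_top_iff {A Q : Subgroup G} {q : ℕ} [Fact q.Prime] :
    Q ∈ Cfsg.maxInvSubgroups ⊤ A {q} ↔ MaxInvQ A q Q := by
  unfold Cfsg.maxInvSubgroups MaxInvQ
  rw [Set.mem_ofPred_eq, mem_invSubgroups_top_iff]
  simp only [mem_invSubgroups_top_iff]

end Cfsg.Agent.Lib.Helper23
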