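import Cfsg.Agent.Lib.Helper23.Trans1
import Cfsg.Agent.Lib.Helper23.Cores
import Cfsg.Agent.Lib.Helper34.PGroupNorm
import Cfsg.Prelude.Def_OddOrder

set_option autoImplicit false

/-! BG §7: transitivity theorems in a minimal simple group of odd order. -/

namespace Cfsg.Agent.Lib.Helper23

open Subgroup

variable {G : Type*} [Group G]

theorem piCoreOf_le (π : Set ℕ) (X : Subgroup G) : Cfsg.piCoreOf π X ≤ X := by
  unfold Cfsg.piCoreOf
  exact map_subtype_le _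

theorem piCoreOf_primes [Finite G] (π : Set ℕ) (X : Subgroup G) :
    ∀ p : ℕ, p.Prime → p ∣ Nat.card (Cfsg.piCoreOf π X) → p ∈ π := by
  intro p hp h
  unfold Cfsg.piCoreOf at h
  rw [Subgroup.card_map_of_injective X.subtype_injective] at h
  exact piCore_primes π X p hp h

theorem le_normalizer_piCoreOf (π : Set ℕ) (X : Subgroup G) :
    X ≤ normalizer (Cfsg.piCoreOf π X : Set G) := by
  rw [le_normalizer_iff]
  intro x hx y hy
  unfold Cfsg.piCoreOf at hy ⊢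
  obtain ⟨z, hz, rfl⟩ := hy
  exact ⟨⟨x, hx⟩ * z * ⟨x, hx⟩⁻¹, (Cfsg.piCore_normal π X).conj_mem z hz _, rfl⟩

theorem le_piCoreOf (π : Set ℕ) {X Y : Subgroup G} (hYX : Y ≤ X)
    (hXY : X ≤ normalizer (Y : Set G)) (hY : ∀ p : ℕ, p.Prime → p ∣ Nat.card Y → p ∈ π) :
    Y ≤ Cfsg.piCoreOf π X := by
  unfold Cfsg.piCoreOf Cfsg.piCore
  have h1 : Y.subgroupOf X ≤ sSup {N : Subgroup X | N.Normal ∧
      ∀ p : ℕ, p.Prime → p ∣ Nat.card N → p ∈ π} := by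
    apply le_sSup
    refine ⟨normal_subgroupOf_iff_le_normalizer hYX |>.mpr hXY, ?_⟩
    intro p hp h
    rw [Nat.card_congr (subgroupOfEquivOfLe hYX).toEquiv] at h
    exact hY p hp h
  have h2 := map_mono (f := X.subtype) h1
  rwa [subgroupOf_map_subtype, inf_eq_left.mpr hYX] at h2

theorem coprime_of_primesNotDvd [Finite G] {n : ℕ} {Y : Subgroup G}
    (hY : ∀ p : ℕ, p.Prime → p ∣ Nat.card Y → p ∈ Cfsg.primesNotDvd n) :
    n.Coprime (Nat.card Y) := by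
  apply Nat.coprime_of_dvd
  intro p hp h1 h2
  exact (hY p hp h2).2 h1

theorem primes_mono {π : Set ℕ} {Y Z : Subgroup G} (h : Y ≤ Z)
    (hZ : ∀ p : ℕ, p.Prime → p ∣ Nat.card Z → p ∈ π) :
    ∀ p : ℕ, p.Prime → p ∣ Nat.card Y → p ∈ π :=
  fun p hp hd => hZ p hp (hd.trans (Subgroup.card_dvd_of_le h))

theorem normalizer_ne_top_of_simple [IsSimpleGroup G] {D : Subgroup G} (h1 : D ≠ ⊥) (h2 : D ≠ ⊤) :
    normalizer (D : Set G) ≠ ⊤ := by
  intro h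
  have : D.Normal := normalizer_eq_top_iff.mp h
  rcases this.eq_bot_or_eq_top with h | h
  · exact h1 h
  · exact h2 h

theorem primes_of_isPGroup {q n : ℕ} (hq : q.Prime) (hqn : ¬ q ∣ n) {Q : Subgroup G}
    (hQ : IsPGroup q Q) [Finite G] : ∀ p : ℕ, p.Prime → p ∣ Nat.card Q → p ∈ Cfsg.primesNotDvd n := by
  haveI : Fact q.Prime := ⟨hq⟩
  intro p hp h
  have := (isPGroup_iff_primes.mpr hQ) p hp h
  rw [Set.mem_singleton_iff] at this
  subst this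
  exact ⟨hq, hqn⟩

section

variable [Finite G] {A : Subgroup G}

/-- Under the transitivity hypothesis, `A`-invariant `π(A)'`-subgroups of a proper overgroup `X` of `A`
lie in `O_{π(A)'}(X)`. -/
theorem TransHyp.le_piCoreOf (hA : Cfsg.TransitivityHypothesis A) {X Y : Subgroup G} (hX : X ≠ ⊤)
    (hAX : A ≤ X) (hYX : Y ≤ X)
    (hY : ∀ p : ℕ, p.Prime → p ∣ Nat.card Y → p ∈ Cfsg.primesNotDvd (Nat.card A))
    (hAY : A ≤ normalizer (Y : Set G)) :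
    Y ≤ Cfsg.piCoreOf (Cfsg.primesNotDvd (Nat.card A)) X := by
  rw [← hA.2.2 X hX hAX]
  exact le_sSup ⟨hYX, hY, hAY⟩

theorem TransHyp.le_K [IsSimpleGroup G] (hA : Cfsg.TransitivityHypothesis A) {Y : Subgroup G}
    (hYC : Y ≤ centralizer (A : Set G))
    (hY : ∀ p : ℕ, p.Prime → p ∣ Nat.card Y → p ∈ Cfsg.primesNotDvd (Nat.card A)) :
    Y ≤ Cfsg.piCoreOf (Cfsg.primesNotDvd (Nat.card A)) (centralizer (A : Set G)) := by
  have hN : normalizer (A : Set G) ≠ ⊤ := normalizer_ne_top_of_simple hA.1 hA.2.1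
  have hCN : centralizer (A : Set G) ≤ normalizer (A : Set G) := centralizer_le_normalizer _
  have hAY : A ≤ normalizer (Y : Set G) :=
    (le_centralizer_iff.mp hYC).trans (centralizer_le_normalizer _)
  have h1 := TransHyp.le_piCoreOf hA hN le_normalizer (hYC.trans hCN) hY hAY
  set W := Cfsg.piCoreOf (Cfsg.primesNotDvd (Nat.card A)) (normalizer (A : Set G)) with hW
  have h2 : W ⊓ centralizer (A : Set G) ≤
      Cfsg.piCoreOf (Cfsg.primesNotDvd (Nat.card A)) (centralizer (A : Set G)) := by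
    apply Helper23.le_piCoreOf _ inf_le_right
    · rw [le_normalizer_iff]
      intro c hc x hx
      rw [mem_inf] at hx ⊢
      refine ⟨(le_normalizer_iff.mp (le_normalizer_piCoreOf _ _)) c (hCN hc) x hx.1, ?_⟩
      exact mul_mem (mul_mem hc hx.2) (inv_mem hc)
    · exact primes_mono inf_le_left (piCoreOf_primes _ _)
  exact (le_inf h1 hYC).trans h2

theorem le_normalizer_inf_of_le {A U V : Subgroup G} (hU : A ≤ normalizer (U : Set G))
    (hV : A ≤ normalizer (V : Set G)) : A ≤ normalizer ((U ⊓ V : Subgroup G) : Set G) := by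
  rw [le_normalizer_iff]
  intro a ha x hx
  exact ⟨(le_normalizer_iff.mp hU) a ha x hx.1, (le_normalizer_iff.mp hV) a ha x hx.2⟩

/-- BG 7.2, first step: two maximal `A`-invariant `q`-subgroups with nontrivial intersection are
conjugate under `K`. -/
theorem TransHyp.conj_of_inf_ne_bot (hG : Cfsg.IsMinSimpleOddOrder G)
    (hA : Cfsg.TransitivityHypothesis A) (q : ℕ) [hq : Fact q.Prime] (hqA : ¬ q ∣ Nat.card A)
    (Q₁ Q₂ : Subgroup G) (h₁ : MaxInvQ A q Q₁) (h₂ : MaxInvQ A q Q₂) (hD : Q₁ ⊓ Q₂ ≠ ⊥) :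
    ∃ k ∈ Cfsg.piCoreOf (Cfsg.primesNotDvd (Nat.card A)) (centralizer (A : Set G)),
      cj k Q₁ = Q₂ := by
  haveI : IsSimpleGroup G := hG.2.1
  have hsolv : Group.IsSolvable A := hG.2.2.2 A hA.2.1
  refine transitivity_engine A _ q hsolv (piCoreOf_le _ _) (fun D => D ≠ ⊥) ?_ ?_ _ Q₁ Q₂ h₁ h₂ hD rfl
  · intro D D' h1 h2 h3
    apply h1
    rw [h3] at h2
    exact le_bot_iff.mp h2
  · intro Q₁ Q₂ h₁ h₂ hD hD₁ hD₂
    set D := Q₁ ⊓ Q₂ with hDdef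
    have hDtop : D ≠ ⊤ := by
      intro h
      apply hD₁
      have : Q₁ = ⊤ := top_le_iff.mp (h ▸ inf_le_left)
      rw [h, this]
    have hN : normalizer (D : Set G) ≠ ⊤ := normalizer_ne_top_of_simple hD hDtop
    have hAN : A ≤ normalizer (D : Set G) := le_normalizer_inf_of_le h₁.1.2 h₂.1.2
    have hsub : ∀ Q : Subgroup G, MaxInvQ A q Q → D ≤ Q → D ≠ Q →
        ¬ (Cfsg.piCoreOf (Cfsg.primesNotDvd (Nat.card A)) (normalizer (D : Set G)) ⊓ Q ≤ D) := by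
      intro Q hQ hDQ hne hle
      apply hne
      apply Cfsg.Agent.Lib.Helper34.eq_of_inf_normalizer_le hQ.1.1 hDQ
      refine le_trans (le_inf ?_ inf_le_left) hle
      apply TransHyp.le_piCoreOf hA hN hAN inf_le_right
      · exact primes_of_isPGroup hq.out hqA (hQ.1.1.to_le inf_le_left)
      · exact le_normalizer_inf_of_le hQ.1.2 (hAN.trans le_normalizer)
    refine ⟨Cfsg.piCoreOf (Cfsg.primesNotDvd (Nat.card A)) (normalizer (D : Set G)),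
      hAN.trans (le_normalizer_piCoreOf _ _), coprime_of_primesNotDvd (piCoreOf_primes _ _), ?_, ?_,
      hsub Q₁ h₁ inf_le_left hD₁, hsub Q₂ h₂ inf_le_right hD₂⟩
    · exact TransHyp.le_K hA inf_le_right (primes_mono inf_le_left (piCoreOf_primes _ _))
    · apply TransHyp.le_piCoreOf hA hN hAN le_normalizer
      · exact primes_of_isPGroup hq.out hqA (h₁.1.1.to_le inf_le_left)
      · exact hAN

/-- BG 7.2. -/
theorem TransHyp.conj_of_common_overgroup (hG : Cfsg.IsMinSimpleOddOrder G)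
    (hA : Cfsg.TransitivityHypothesis A) (q : ℕ) [hq : Fact q.Prime] (hqA : ¬ q ∣ Nat.card A)
    (Q₁ Q₂ : Subgroup G) (h₁ : MaxInvQ A q Q₁) (h₂ : MaxInvQ A q Q₂)
    (H : Subgroup G) (hH : H ≠ ⊤) (hAH : A ≤ H) (hH₁ : H ⊓ Q₁ ≠ ⊥) (hH₂ : H ⊓ Q₂ ≠ ⊥) :
    ∃ k ∈ Cfsg.piCoreOf (Cfsg.primesNotDvd (Nat.card A)) (centralizer (A : Set G)),
      cj k Q₁ = Q₂ := by
  haveI : IsSimpleGroup G := hG.2.1
  have hsolv : Group.IsSolvable A := hG.2.2.2 A hA.2.1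
  set π' := Cfsg.primesNotDvd (Nat.card A) with hπ
  set H₀ := Cfsg.piCoreOf π' H with hH₀
  have hAH₀ : A ≤ normalizer (H₀ : Set G) := hAH.trans (le_normalizer_piCoreOf _ _)
  have hcop : (Nat.card A).Coprime (Nat.card H₀) := coprime_of_primesNotDvd (piCoreOf_primes _ _)
  have main : ∀ Q : Subgroup G, MaxInvQ A q Q → H ⊓ Q ≠ ⊥ →
      ∃ S T : Subgroup G, S ≤ H₀ ∧ IsPGroup q S ∧ ¬ q ∣ S.relIndex H₀ ∧
        A ≤ normalizer (S : Set G) ∧ H ⊓ Q ≤ S ∧ S ≤ T ∧ MaxInvQ A q T := by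
    intro Q hQ hne
    have hAR : A ≤ normalizer ((H ⊓ Q : Subgroup G) : Set G) :=
      le_normalizer_inf_of_le (hAH.trans le_normalizer) hQ.1.2
    have hR : H ⊓ Q ≤ H₀ := TransHyp.le_piCoreOf hA hH hAH inf_le_left
      (primes_of_isPGroup hq.out hqA (hQ.1.1.to_le inf_le_right)) hAR
    obtain ⟨S, hRS, hSH, hSq, hSi, hAS⟩ :=
      Cfsg.Agent.Lib.Helper1.invariant_pSubgroup_le_invariant_sylow A H₀ hAH₀ hcop (Or.inl hsolv) q
        (H ⊓ Q) hR (hQ.1.1.to_le inf_le_right) hAR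
    obtain ⟨T, hT, hST⟩ := exists_maxInvQ_ge (A := A) (q := q) (U := S) ⟨hSq, hAS⟩
    exact ⟨S, T, hSH, hSq, hSi, hAS, hRS, hST, hT⟩
  obtain ⟨S₁, T₁, hS₁H, hS₁q, hS₁i, hAS₁, hRS₁, hST₁, hT₁⟩ := main Q₁ h₁ hH₁
  obtain ⟨S₂, T₂, hS₂H, hS₂q, hS₂i, hAS₂, hRS₂, hST₂, hT₂⟩ := main Q₂ h₂ hH₂
  obtain ⟨c, hc, hcS⟩ := Cfsg.Agent.Lib.Helper1.invariant_sylow_conj A H₀ hAH₀ hcop (Or.inl hsolv) q
    S₁ S₂ hS₁H hS₁q hS₁i hS₂H hS₂q hS₂i hAS₁ hAS₂
  rw [conj_smul_eq_cj] at hcS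
  have hcK : c ∈ Cfsg.piCoreOf π' (centralizer (A : Set G)) :=
    TransHyp.le_K hA inf_le_right (primes_mono inf_le_left (piCoreOf_primes _ _)) hc
  have hne : ∀ {R U V : Subgroup G}, R ≠ ⊥ → R ≤ U → R ≤ V → U ⊓ V ≠ ⊥ := by
    intro R U V hR hU hV h
    apply hR
    exact le_bot_iff.mp (h ▸ le_inf hU hV)
  obtain ⟨k₁, hk₁, e1⟩ := TransHyp.conj_of_inf_ne_bot hG hA q hqA Q₁ T₁ h₁ hT₁
    (hne hH₁ inf_le_right (hRS₁.trans hST₁))
  obtain ⟨k₃, hk₃, e3⟩ := TransHyp.conj_of_inf_ne_bot hG hA q hqA (cj c T₁) T₂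
    (hT₁.cj (piCoreOf_le _ _ hcK)) hT₂
    (hne hH₂ (hRS₂.trans (hcS ▸ cj_mono hST₁)) (hRS₂.trans hST₂))
  obtain ⟨k₄, hk₄, e4⟩ := TransHyp.conj_of_inf_ne_bot hG hA q hqA Q₂ T₂ h₂ hT₂
    (hne hH₂ inf_le_right (hRS₂.trans hST₂))
  refine ⟨k₄⁻¹ * (k₃ * (c * k₁)), mul_mem (inv_mem hk₄) (mul_mem hk₃ (mul_mem hcK hk₁)), ?_⟩
  rw [cj_mul, cj_mul, cj_mul, e1, e3, ← e4, cj_inv_cj]

end

end Cfsg.Agent.Lib.Helper23
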