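import Cfsg.Agent.Lib.Helper23.Trans2
import Cfsg.Agent.Lib.Helper22.Generation

set_option autoImplicit false

/-! BG §7: transitivity theorems 7.3, 7.4. -/

namespace Cfsg.Agent.Lib.Helper23

open Subgroup

variable {G : Type*} [Group G]

theorem exists_elemAb_of_not_rankLE {k : ℕ} {Z : Subgroup G} (h : ¬ Cfsg.RankLE k Z) :
    ∃ r : ℕ, r.Prime ∧ ∃ B : Subgroup G, B ≤ Z ∧ (∀ x ∈ B, ∀ y ∈ B, x * y = y * x) ∧
      (∀ x ∈ B, x ^ r = 1) ∧ r ^ k < Nat.card B := by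
  unfold Cfsg.RankLE Cfsg.PRankLE at h
  push Not at h
  obtain ⟨r, hr, E, hE, hexp, hcard⟩ := h
  refine ⟨r, hr, E.map Z.subtype, map_subtype_le _, ?_, ?_, ?_⟩
  · rintro _ ⟨x, hx, rfl⟩ _ ⟨y, hy, rfl⟩
    have := hE.is_comm.comm ⟨x, hx⟩ ⟨y, hy⟩
    have h2 : x * y = y * x := congrArg Subtype.val this
    rw [← map_mul, ← map_mul, h2]
  · rintro _ ⟨x, hx, rfl⟩
    rw [← map_pow, hexp x hx, map_one]
  · rwa [Subgroup.card_map_of_injective Z.subtype_injective]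

theorem exists_hyperplane_centralizer_ne_bot [Finite G] {r : ℕ} [Fact r.Prime] (B Q : Subgroup G)
    (hBc : ∀ x ∈ B, ∀ y ∈ B, x * y = y * x) (hBp : ∀ x ∈ B, x ^ r = 1)
    (hQ : ¬ r ∣ Nat.card Q) (hBQ : B ≤ normalizer (Q : Set G)) (hne : Q ≠ ⊥) :
    ∃ B' : Subgroup G, B' ≤ B ∧ B'.relIndex B ≤ r ∧ Q ⊓ centralizer (B' : Set G) ≠ ⊥ := by
  by_contra hcon
  push Not at hcon
  apply hne
  rw [Cfsg.Agent.Lib.Helper22.eq_iSup_centralizer_hyperplane B Q hBc hBp hQ hBQ]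
  rw [iSup_eq_bot]
  rintro ⟨B', h1, h2⟩
  exact hcon B' h1 h2

theorem centralizer_singleton_ne_top_of_simple [IsSimpleGroup G] (hnc : ¬ IsMulCommutative G)
    {b : G} (hb : b ≠ 1) : centralizer ({b} : Set G) ≠ ⊤ := by
  intro h
  have hbZ : b ∈ center G := by
    rw [mem_center_iff]
    intro g
    have : g ∈ centralizer ({b} : Set G) := h ▸ mem_top g
    rw [mem_centralizer_singleton_iff] at this
    exact this
  rcases (inferInstance : (center G).Normal).eq_bot_or_eq_top with h1 | h1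
  · rw [h1, mem_bot] at hbZ
    exact hb hbZ
  · apply hnc
    refine ⟨⟨fun x y => ?_⟩⟩
    have : y ∈ center G := h1 ▸ mem_top y
    exact (mem_center_iff.mp this x)

theorem exists_ne_one_of_one_lt_card {B : Subgroup G} (h : 1 < Nat.card B) : ∃ b ∈ B, b ≠ 1 := by
  by_contra hcon
  push Not at hcon
  have : B = ⊥ := (eq_bot_iff_forall B).mpr hcon
  rw [this, card_bot] at h
  exact lt_irrefl _ h

section

variable [Finite G] {A : Subgroup G}

theorem MaxInvQ.eq_bot_of_bot {q : ℕ} {Q₁ Q₂ : Subgroup G} (h₁ : MaxInvQ A q Q₁)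
    (h₂ : InvQ A q Q₂) (h : Q₁ = ⊥) : Q₂ = ⊥ := by
  rw [h₁.2 Q₂ h₂ (h ▸ bot_le), h]

theorem not_dvd_card_of_elemAb {q r : ℕ} [hq : Fact q.Prime] (hr : r.Prime)
    (hqA : ¬ q ∣ Nat.card A) {B Q : Subgroup G} (hBA : B ≤ A) (hBp : ∀ x ∈ B, x ^ r = 1)
    (hB : 1 < Nat.card B) (hQ : IsPGroup q Q) : ¬ r ∣ Nat.card Q := by
  intro h
  have h1 := (isPGroup_iff_primes.mpr hQ) r hr h
  rw [Set.mem_singleton_iff] at h1
  subst h1
  apply hqA
  obtain ⟨b, hb, hb1⟩ := exists_ne_one_of_one_lt_card hB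
  have h2 : orderOf b = r := orderOf_eq_prime (hBp b hb) hb1
  have h3 : orderOf (⟨b, hBA hb⟩ : A) ∣ Nat.card A := orderOf_dvd_natCard _
  rw [Subgroup.orderOf_mk, h2] at h3
  exact h3

/-- BG 7.3. -/
theorem TransHyp.conj_of_rank_three (hG : Cfsg.IsMinSimpleOddOrder G)
    (hA : Cfsg.TransitivityHypothesis A)
    (hZ : ¬ Cfsg.RankLE 2 ↥(A ⊓ centralizer (A : Set G)))
    (q : ℕ) [hq : Fact q.Prime] (hqA : ¬ q ∣ Nat.card A)
    (Q₁ Q₂ : Subgroup G) (h₁ : MaxInvQ A q Q₁) (h₂ : MaxInvQ A q Q₂) :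
    ∃ k ∈ Cfsg.piCoreOf (Cfsg.primesNotDvd (Nat.card A)) (centralizer (A : Set G)),
      cj k Q₁ = Q₂ := by
  haveI : IsSimpleGroup G := hG.2.1
  by_cases hb₁ : Q₁ = ⊥
  · refine ⟨1, one_mem _, ?_⟩
    rw [cj_one, hb₁, h₁.eq_bot_of_bot h₂.1 hb₁]
  by_cases hb₂ : Q₂ = ⊥
  · refine ⟨1, one_mem _, ?_⟩
    rw [cj_one, hb₂, h₂.eq_bot_of_bot h₁.1 hb₂]
  obtain ⟨r, hr, B, hBZ, hBc, hBp, hcard⟩ := exists_elemAb_of_not_rankLE hZ
  haveI : Fact r.Prime := ⟨hr⟩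
  have hB1 : 1 < Nat.card B := lt_of_le_of_lt (Nat.one_le_pow _ _ hr.pos) hcard
  have hBA : B ≤ A := hBZ.trans inf_le_left
  obtain ⟨B₁, hB₁, hi₁, hc₁⟩ := exists_hyperplane_centralizer_ne_bot B Q₁ hBc hBp
    (not_dvd_card_of_elemAb hr hqA hBA hBp hB1 h₁.1.1) (hBA.trans h₁.1.2) hb₁
  obtain ⟨B₂, hB₂, hi₂, hc₂⟩ := exists_hyperplane_centralizer_ne_bot B Q₂ hBc hBp
    (not_dvd_card_of_elemAb hr hqA hBA hBp hB1 h₂.1.1) (hBA.trans h₂.1.2) hb₂
  have hlt : 1 < Nat.card (B₁ ⊓ B₂ : Subgroup G) := by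
    have e1 : (B₁ ⊓ B₂).relIndex B * Nat.card (B₁ ⊓ B₂ : Subgroup G) = Nat.card B :=
      Cfsg.Agent.Lib.Helper22.relIndex_mul_natCard (inf_le_left.trans hB₁)
    have e2 : (B₁ ⊓ B₂).relIndex B ≤ r * r :=
      relIndex_inf_le.trans (Nat.mul_le_mul hi₁ hi₂)
    by_contra hcon
    have e3 : Nat.card (B₁ ⊓ B₂ : Subgroup G) = 1 := by
      have : 0 < Nat.card (B₁ ⊓ B₂ : Subgroup G) := Nat.card_pos
      omega
    rw [e3, mul_one] at e1
    rw [← e1, pow_two] at hcard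
    exact absurd hcard (not_lt.mpr e2)
  obtain ⟨b, hb, hb1⟩ := exists_ne_one_of_one_lt_card hlt
  rw [mem_inf] at hb
  have hbC : b ∈ centralizer (A : Set G) := (hBZ (hB₁ hb.1)).2
  have hsub : ∀ {B' Q : Subgroup G}, b ∈ B' → Q ⊓ centralizer (B' : Set G) ≠ ⊥ →
      centralizer ({b} : Set G) ⊓ Q ≠ ⊥ := by
    intro B' Q hbB' hne h
    apply hne
    rw [eq_bot_iff, ← h]
    refine le_inf (inf_le_right.trans (centralizer_le ?_)) inf_le_left
    rintro _ rfl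
    exact hbB'
  refine TransHyp.conj_of_common_overgroup hG hA q hqA Q₁ Q₂ h₁ h₂ (centralizer {b})
    (centralizer_singleton_ne_top_of_simple hG.2.2.1 hb1) ?_ (hsub hb.1 hc₁) (hsub hb.2 hc₂)
  intro a ha
  rw [mem_centralizer_singleton_iff]
  exact (mem_centralizer_iff.mp hbC a ha)

/-- BG 7.4. -/
theorem TransHyp.conj_of_rank_two (hG : Cfsg.IsMinSimpleOddOrder G)
    (hA : Cfsg.TransitivityHypothesis A)
    (hZ : ¬ Cfsg.RankLE 1 ↥(A ⊓ centralizer (A : Set G)))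
    (q : ℕ) [hq : Fact q.Prime] (hqA : ¬ q ∣ Nat.card A)
    (hqC : q ∣ Nat.card (centralizer (A : Set G)))
    (Q₁ Q₂ : Subgroup G) (h₁ : MaxInvQ A q Q₁) (h₂ : MaxInvQ A q Q₂) :
    ∃ k ∈ Cfsg.piCoreOf (Cfsg.primesNotDvd (Nat.card A)) (centralizer (A : Set G)),
      cj k Q₁ = Q₂ := by
  haveI : IsSimpleGroup G := hG.2.1
  obtain ⟨x, hx⟩ := exists_prime_orderOf_dvd_card' (G := centralizer (A : Set G)) q hqC
  have hx1 : (x : G) ≠ 1 := by
    intro h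
    have : x = 1 := Subtype.ext h
    rw [this, orderOf_one] at hx
    exact hq.out.one_lt.ne hx
  have hX₀ : InvQ A q (zpowers (x : G)) := by
    constructor
    · rw [IsPGroup.iff_card]
      refine ⟨1, ?_⟩
      rw [Nat.card_zpowers, Subgroup.orderOf_coe, hx, pow_one]
    · refine le_trans ?_ (centralizer_le_normalizer _)
      rw [le_centralizer_iff, zpowers_le]
      exact x.2
  obtain ⟨Q₀, hQ₀, hXQ₀⟩ := exists_maxInvQ_ge hX₀
  obtain ⟨r, hr, B, hBZ, hBc, hBp, hcard⟩ := exists_elemAb_of_not_rankLE hZ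
  haveI : Fact r.Prime := ⟨hr⟩
  rw [pow_one] at hcard
  have hB1 : 1 < Nat.card B := lt_trans hr.one_lt hcard
  have hBA : B ≤ A := hBZ.trans inf_le_left
  have main : ∀ Q : Subgroup G, MaxInvQ A q Q →
      ∃ k ∈ Cfsg.piCoreOf (Cfsg.primesNotDvd (Nat.card A)) (centralizer (A : Set G)),
        cj k Q = Q₀ := by
    intro Q hQ
    have hb₁ : Q ≠ ⊥ := by
      intro h
      have := hQ.eq_bot_of_bot hX₀ h
      rw [zpowers_eq_bot] at this
      exact hx1 this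
    obtain ⟨B₁, hB₁, hi₁, hc₁⟩ := exists_hyperplane_centralizer_ne_bot B Q hBc hBp
      (not_dvd_card_of_elemAb hr hqA hBA hBp hB1 hQ.1.1) (hBA.trans hQ.1.2) hb₁
    have hlt : 1 < Nat.card B₁ := by
      have e1 : B₁.relIndex B * Nat.card B₁ = Nat.card B :=
        Cfsg.Agent.Lib.Helper22.relIndex_mul_natCard hB₁
      by_contra hcon
      have e3 : Nat.card B₁ = 1 := by
        have : 0 < Nat.card B₁ := Nat.card_pos
        omega
      rw [e3, mul_one] at e1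
      omega
    obtain ⟨b, hb, hb1⟩ := exists_ne_one_of_one_lt_card hlt
    have hbC : b ∈ centralizer (A : Set G) := (hBZ (hB₁ hb)).2
    have hbA : b ∈ A := hBA (hB₁ hb)
    refine TransHyp.conj_of_common_overgroup hG hA q hqA Q Q₀ hQ hQ₀ (centralizer {b})
      (centralizer_singleton_ne_top_of_simple hG.2.2.1 hb1) ?_ ?_ ?_
    · intro a ha
      rw [mem_centralizer_singleton_iff]
      exact (mem_centralizer_iff.mp hbC a ha)
    · intro h
      apply hc₁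
      rw [eq_bot_iff, ← h]
      refine le_inf (inf_le_right.trans (centralizer_le ?_)) inf_le_left
      rintro _ rfl
      exact hb
    · intro h
      apply hx1
      have : (x : G) ∈ centralizer ({b} : Set G) ⊓ Q₀ := by
        refine mem_inf.mpr ⟨?_, hXQ₀ (mem_zpowers _)⟩
        rw [mem_centralizer_singleton_iff]
        exact (mem_centralizer_iff.mp x.2 b hbA).symm
      rw [h, mem_bot] at this
      exact this
  obtain ⟨k₁, hk₁, e1⟩ := main Q₁ h₁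
  obtain ⟨k₂, hk₂, e2⟩ := main Q₂ h₂
  refine ⟨k₂⁻¹ * k₁, mul_mem (inv_mem hk₂) hk₁, ?_⟩
  rw [cj_mul, e1, ← e2, cj_inv_cj]

end

end Cfsg.Agent.Lib.Helper23
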