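import Cfsg.Agent.Lib.Helper23.Trans3
import Cfsg.Agent.Lib.Helper23.PConstrained
import Cfsg.Agent.Lib.Helper23.LBal4
import Cfsg.Agent.Lib.Helper9.Transitivity3
import Cfsg.Agent.S1462

set_option autoImplicit false

/-! BG 7.6: sufficient conditions for the transitivity hypothesis. -/

namespace Cfsg.Agent.Lib.Helper23

open Subgroup

theorem isPConstrained_of_isSolvable (p : ℕ) [Fact p.Prime] (X : Type*) [Group X] [Finite X]
    [Group.IsSolvable X] : Cfsg.IsPConstrained p X := by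
  rw [isPConstrained_iff]
  unfold Cfsg.pLayer
  rw [sSup_eq_bot]
  intro K hK
  exact eq_bot_of_perfect_of_isSolvable (isPComponent_perfect p hK)

variable {G : Type*} [Group G]

theorem mem_primesNotDvd_iff_of_isPGroup [Finite G] {p : ℕ} [hp : Fact p.Prime] {A : Subgroup G}
    (hA : IsPGroup p A) (hne : A ≠ ⊥) (q : ℕ) :
    q ∈ Cfsg.primesNotDvd (Nat.card A) ↔ q.Prime ∧ q ≠ p := by
  obtain ⟨k, hk⟩ := IsPGroup.iff_card.mp hA
  have hk0 : k ≠ 0 := by
    rintro rfl
    rw [pow_zero] at hk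
    exact hne (card_eq_one.mp hk)
  unfold Cfsg.primesNotDvd
  rw [Set.mem_ofPred_eq, hk]
  constructor
  · rintro ⟨h1, h2⟩
    refine ⟨h1, ?_⟩
    rintro rfl
    exact h2 (dvd_pow_self _ hk0)
  · rintro ⟨h1, h2⟩
    refine ⟨h1, fun h => h2 ?_⟩
    exact (Nat.prime_dvd_prime_iff_eq h1 hp.out).mp (h1.dvd_of_dvd_pow h)

theorem coprime_iff_primes [Finite G] {p : ℕ} [hp : Fact p.Prime] {A : Subgroup G}
    (hA : IsPGroup p A) (hne : A ≠ ⊥) (n : ℕ) :
    (∀ q : ℕ, q.Prime → q ∣ n → q ∈ Cfsg.primesNotDvd (Nat.card A)) ↔ n.Coprime p := by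
  constructor
  · intro h
    rw [Nat.coprime_comm, Nat.Prime.coprime_iff_not_dvd hp.out]
    intro hd
    exact ((mem_primesNotDvd_iff_of_isPGroup hA hne p).mp (h p hp.out hd)).2 rfl
  · intro h q hq hd
    rw [mem_primesNotDvd_iff_of_isPGroup hA hne]
    refine ⟨hq, ?_⟩
    rintro rfl
    rw [Nat.coprime_comm, Nat.Prime.coprime_iff_not_dvd hp.out] at h
    exact h hd

/-- A criterion for the transitivity hypothesis for a `p`-group. -/
theorem transitivityHypothesis_of_pGroup [Finite G] {p : ℕ} [hp : Fact p.Prime] {A : Subgroup G}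
    (hA : IsPGroup p A) (hne : A ≠ ⊥) (hnt : A ≠ ⊤)
    (h : ∀ X Y : Subgroup G, X ≠ ⊤ → A ≤ X → Y ≤ X → (Nat.card Y).Coprime p →
      A ≤ normalizer (Y : Set G) → Y.subgroupOf X ≤ Cfsg.pPrimeCore p X) :
    Cfsg.TransitivityHypothesis A := by
  refine ⟨hne, hnt, ?_⟩
  intro X hX hAX
  apply le_antisymm
  · apply sSup_le
    rintro Y ⟨hYX, hYp, hAY⟩
    have h1 := h X Y hX hAX hYX ((coprime_iff_primes hA hne _).mp hYp) hAY
    have h2 : Cfsg.pPrimeCore p X ≤ Cfsg.piCore (Cfsg.primesNotDvd (Nat.card A)) X := by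
      unfold Cfsg.pPrimeCore Cfsg.piCore
      apply sSup_le_sSup
      rintro N ⟨hN1, hN2⟩
      exact ⟨hN1, (coprime_iff_primes hA hne _).mpr hN2⟩
    have h3 := map_mono (f := X.subtype) (h1.trans h2)
    rwa [subgroupOf_map_subtype, inf_eq_left.mpr hYX] at h3
  · apply le_sSup
    exact ⟨piCoreOf_le _ _, piCoreOf_primes _ _, hAX.trans (le_normalizer_piCoreOf _ _)⟩

theorem le_normalizer_subgroupOf {A Y X : Subgroup G} (h : A ≤ normalizer (Y : Set G)) :
    A.subgroupOf X ≤ normalizer ((Y.subgroupOf X : Subgroup X) : Set X) := by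
  intro e he
  rw [mem_subgroupOf] at he
  rw [mem_normalizer_iff]
  intro k
  have := mem_normalizer_iff.mp (h he) (k : G)
  simpa [mem_subgroupOf] using this

/-- If `A` is self-centralizing and normal in a Sylow `p`-subgroup, every `p`-element of `C_G(A)` lies in
`A`. -/
theorem mem_of_isSCN_sylow [Finite G] {p : ℕ} [hp : Fact p.Prime] (P : Sylow p G) {A : Subgroup G}
    (hA : Cfsg.IsSCN (P : Subgroup G) A) {x : G} (hx : x ∈ centralizer (A : Set G))
    (hxp : IsPGroup p (zpowers x)) : x ∈ A := by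
  obtain ⟨hAP, hPN, hC⟩ := hA
  set N := normalizer (A : Set G) with hN
  have hCN : centralizer (A : Set G) ≤ N := centralizer_le_normalizer _
  let P' : Sylow p N := P.subtype hPN
  obtain ⟨Q, hQ⟩ := (hxp.comap_subtype (K := N)).exists_le_sylow
  obtain ⟨g, hg⟩ := MulAction.exists_smul_eq N Q P'
  have hxQ : (⟨x, hCN hx⟩ : N) ∈ Q := hQ (by rw [mem_comap]; exact mem_zpowers x)
  have h1 : g * ⟨x, hCN hx⟩ * g⁻¹ ∈ (P' : Subgroup N) := by
    rw [← hg, Sylow.coe_subgroup_smul]
    exact ⟨_, hxQ, rfl⟩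
  have h2 : (g : G) * x * (g : G)⁻¹ ∈ (P : Subgroup G) := by
    have h3 : g * ⟨x, hCN hx⟩ * g⁻¹ ∈ (P : Subgroup G).subgroupOf N := h1
    rw [mem_subgroupOf] at h3
    exact h3
  have hgN : ∀ a : G, a ∈ A ↔ (g : G) * a * (g : G)⁻¹ ∈ A := mem_normalizer_iff.mp g.2
  have h4 : (g : G) * x * (g : G)⁻¹ ∈ centralizer (A : Set G) := by
    rw [mem_centralizer_iff]
    intro a ha
    have ha' : (g : G)⁻¹ * a * (g : G) ∈ A := by
      rw [hgN]
      have : (g : G) * ((g : G)⁻¹ * a * (g : G)) * (g : G)⁻¹ = a := by group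
      rw [this]; exact ha
    have h5 := mem_centralizer_iff.mp hx _ ha'
    calc a * ((g : G) * x * (g : G)⁻¹) = (g : G) * (((g : G)⁻¹ * a * (g : G)) * x) * (g : G)⁻¹ := by group
      _ = (g : G) * (x * ((g : G)⁻¹ * a * (g : G))) * (g : G)⁻¹ := by rw [h5]
      _ = (g : G) * x * (g : G)⁻¹ * a := by group
  have h6 : (g : G) * x * (g : G)⁻¹ ∈ A := by
    rw [← hC]
    exact mem_inf.mpr ⟨h2, h4⟩
  exact (hgN x).mpr h6

/-- BG 7.6. -/
theorem transitivityHypothesis_of_abelian [Finite G] (hG : Cfsg.IsMinSimpleOddOrder G)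
    (p : ℕ) [hp : Fact p.Prime] (hpG : p ∣ Nat.card G) (A : Subgroup G) (hAp : IsPGroup p A)
    (hAc : IsMulCommutative A)
    (h : (∀ x ∈ centralizer (A : Set G), x ^ p = 1 ↔ x ∈ A) ∧
        (∀ H : Subgroup G, H ≠ ⊤ → Cfsg.PLengthLE p 1 H) ∨
      ∃ P : Sylow p G, Cfsg.IsSCN (P : Subgroup G) A ∧ ¬ Cfsg.PRankLE p 1 A) :
    Cfsg.TransitivityHypothesis A := by
  have hp2 : p ≠ 2 := by
    rintro rfl
    exact (Nat.not_even_iff_odd.mpr hG.1) (even_iff_two_dvd.mpr hpG)
  have hnt : A ≠ ⊤ := by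
    rintro rfl
    apply hG.2.2.1
    refine ⟨⟨fun x y => ?_⟩⟩
    exact congrArg Subtype.val (hAc.is_comm.comm ⟨x, mem_top x⟩ ⟨y, mem_top y⟩)
  rcases h with ⟨h1, h2⟩ | ⟨P, hP, hr⟩
  · have hne : A ≠ ⊥ := by
      rintro rfl
      obtain ⟨x, hx⟩ := exists_prime_orderOf_dvd_card' (G := G) p hpG
      have hxC : x ∈ centralizer (((⊥ : Subgroup G) : Subgroup G) : Set G) := by
        rw [mem_centralizer_iff]
        intro a ha
        rw [SetLike.mem_coe, mem_bot] at ha
        rw [ha, one_mul, mul_one]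
      have h3 := (h1 x hxC).mp (by rw [← hx]; exact pow_orderOf_eq_one x)
      rw [mem_bot] at h3
      rw [h3, orderOf_one] at hx
      exact hp.out.one_lt.ne hx
    apply transitivityHypothesis_of_pGroup hAp hne hnt
    intro X Y hX hAX hYX hYp hAY
    haveI : Group.IsSolvable X := hG.2.2.2 X hX
    apply Cfsg.Agent.S1462.result p hp2 (h2 X hX) (A.subgroupOf X) (Y.subgroupOf X)
    · refine ⟨⟨⟨?_⟩⟩, ?_⟩
      · rintro ⟨a, ha⟩ ⟨b, hb⟩
        rw [mem_subgroupOf] at ha hb
        apply Subtype.ext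
        apply Subtype.ext
        have := congrArg Subtype.val (hAc.is_comm.comm ⟨a, ha⟩ ⟨b, hb⟩)
        exact this
      · intro a ha
        rw [mem_subgroupOf] at ha
        apply Subtype.ext
        have haC : (a : G) ∈ centralizer (A : Set G) := by
          rw [mem_centralizer_iff]
          intro b hb
          exact congrArg Subtype.val (hAc.is_comm.comm ⟨b, hb⟩ ⟨a, ha⟩)
        exact (h1 a haC).mpr ha
    · intro B hB hle
      apply le_antisymm _ hle
      intro b hb
      rw [mem_subgroupOf]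
      have hbC : (b : G) ∈ centralizer (A : Set G) := by
        rw [mem_centralizer_iff]
        intro a ha
        have haB : (⟨a, hAX ha⟩ : X) ∈ B := hle (by rw [mem_subgroupOf]; exact ha)
        have := hB.1.is_comm.comm ⟨⟨a, hAX ha⟩, haB⟩ ⟨b, hb⟩
        exact congrArg (fun z : B => ((z : X) : G)) this
      apply (h1 b hbC).mp
      exact congrArg Subtype.val (hB.2 b hb)
    · rw [Nat.card_congr (subgroupOfEquivOfLe hYX).toEquiv]
      exact hYp
    · exact le_normalizer_subgroupOf hAY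
  · have hne : A ≠ ⊥ := by
      rintro rfl
      apply hr
      intro S _ _
      have : Nat.card S = 1 := by
        haveI : Subsingleton (⊥ : Subgroup G) := inferInstance
        exact Nat.card_of_subsingleton 1
      rw [this]
      exact Nat.one_le_pow _ _ hp.out.pos
    apply transitivityHypothesis_of_pGroup hAp hne hnt
    intro X Y hX hAX hYX hYp hAY
    haveI : Group.IsSolvable X := hG.2.2.2 X hX
    apply Cfsg.Agent.Lib.Helper9.le_pPrimeCore_of_invariant (isPConstrained_of_isSolvable p X)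
      (fun h => absurd h hp2) (A.subgroupOf X) (Y.subgroupOf X) hAp.comap_subtype
    · intro x hx hxp
      rw [mem_subgroupOf]
      apply mem_of_isSCN_sylow P hP
      · rw [mem_centralizer_iff]
        intro e he
        have := (mem_centralizer_iff.mp hx) ⟨e, hAX he⟩ (by simpa [mem_subgroupOf] using he)
        exact congrArg Subtype.val this
      · have h1 := hxp.map X.subtype
        rwa [MonoidHom.map_zpowers] at h1
    · rw [Nat.card_congr (subgroupOfEquivOfLe hYX).toEquiv]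
      exact hYp
    · exact le_normalizer_subgroupOf hAY

end Cfsg.Agent.Lib.Helper23
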