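import Cfsg.Prelude.Def_OddOrderLocal
import Cfsg.Agent.Lib.Helper23.Cores

set_option autoImplicit false

namespace Cfsg.Agent.Lib.Helper23

theorem card_fittingHallOf {G : Type*} [Group G] (M : Subgroup G) :
    Nat.card (Cfsg.fittingHallOf M) = Nat.card (Cfsg.fittingHall M) :=
  Subgroup.card_map_of_injective M.subtype_injective

theorem fittingHallOf_le {G : Type*} [Group G] (M : Subgroup G) : Cfsg.fittingHallOf M ≤ M := by
  rintro _ ⟨x, -, rfl⟩
  exact x.2

/-- In type P data, the orders of `H = M_F` and of `U` are coprime. -/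
theorem typeP_coprime_H_U {G : Type*} [Group G] [Finite G] {M W₁ U W₂ : Subgroup G}
    (hP : Cfsg.IsTypePWith M W₁ U W₂) :
    (Nat.card (Cfsg.fittingHallOf M)).Coprime (Nat.card U) := by
  have h1 := complIn_card_mul hP.U_compl
  have h2 : Nat.card ↥⁅M, M⁆ ∣ Nat.card M := Subgroup.card_dvd_of_le hP.W₁_compl.1
  have h3 := (Cfsg.fittingHall M).card_mul_index
  have h4 := fittingHall_coprime M
  rw [← card_fittingHallOf] at h3 h4
  have h5 : Nat.card U ∣ (Cfsg.fittingHall M).index := by
    rw [← h1, ← h3] at h2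
    exact Nat.dvd_of_mul_dvd_mul_left Nat.card_pos h2
  exact Nat.Coprime.coprime_dvd_right h5 h4

/-- Key computation: an element `u` of `U` with `h * u` centralizing `H` (`h ∈ H`) centralizes `H`. -/
theorem typeP_mem_centralizer {G : Type*} [Group G] [Finite G] {M W₁ U W₂ : Subgroup G}
    (hP : Cfsg.IsTypePWith M W₁ U W₂) {h u : G} (hh : h ∈ Cfsg.fittingHallOf M) (hu : u ∈ U)
    (hc : h * u ∈ Subgroup.centralizer (Cfsg.fittingHallOf M : Set G)) :
    u ∈ Subgroup.centralizer (Cfsg.fittingHallOf M : Set G) := by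
  set H := Cfsg.fittingHallOf M with hH
  set n := Nat.card H with hn
  have hcomm : Commute h⁻¹ (h * u) := by
    have := (Subgroup.mem_centralizer_iff.1 hc) h⁻¹ (inv_mem hh)
    exact this
  have hu' : u = h⁻¹ * (h * u) := by group
  have hpow : u ^ n = (h * u) ^ n := by
    conv_lhs => rw [hu']
    rw [hcomm.mul_pow]
    have : h⁻¹ ^ n = 1 := by
      have := pow_card_eq_one' (x := (⟨h⁻¹, inv_mem hh⟩ : H))
      exact congrArg Subtype.val this
    rw [this, one_mul]
  have hcop : Nat.Coprime n (orderOf u) := by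
    have h1 : orderOf u ∣ Nat.card U := by
      have := orderOf_dvd_natCard (⟨u, hu⟩ : U)
      rwa [Subgroup.orderOf_mk] at this
    exact Nat.Coprime.coprime_dvd_right h1 (typeP_coprime_H_U hP)
  obtain ⟨m, hm⟩ := exists_pow_eq_self_of_coprime hcop
  rw [← hm, hpow]
  exact pow_mem (pow_mem hc _) _

end Cfsg.Agent.Lib.Helper23
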