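import Cfsg.Agent.Lib.Helper47.Syl
import Cfsg.Agent.Lib.Helper23.Trans4
import Cfsg.Agent.Lib.Helper22.SupLemmas

set_option autoImplicit false

/-! BG §9: general lemmas for the uniqueness criteria. -/

namespace Cfsg.Agent.Lib.Helper23U

open Subgroup Cfsg Cfsg.Agent.Lib Cfsg.Agent.Lib.Helper47

variable {G : Type*} [Group G]

theorem exists_coatom_ge [Finite G] {X : Subgroup G} (hX : X ≠ ⊤) : ∃ D, IsCoatom D ∧ X ≤ D := by
  rcases eq_top_or_exists_le_coatom X with h | ⟨D, hD, hXD⟩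
  · exact absurd h hX
  · exact ⟨D, hD, hXD⟩

theorem normalizer_eq_coatom [IsSimpleGroup G] {M N : Subgroup G} (hM : IsCoatom M) (hN : N ≠ ⊥)
    (hNM : N ≤ M) (hn : M ≤ normalizer (N : Set G)) : normalizer (N : Set G) = M := by
  have h1 : normalizer (N : Set G) ≠ ⊤ :=
    Helper23.normalizer_ne_top_of_simple hN (fun h => hM.1 (top_le_iff.mp (h ▸ hNM)))
  by_contra hne
  exact h1 (hM.2 _ (lt_of_le_of_ne hn (Ne.symm hne)))

theorem coatom_eq_of_le {M D : Subgroup G} (hM : IsCoatom M) (hD : IsCoatom D) (h : M ≤ D) : D = M := by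
  by_contra hne
  exact hD.1 (hM.2 _ (lt_of_le_of_ne h (Ne.symm hne)))

/-- Frattini-type argument. -/
theorem le_of_frattini [Finite G] {p : ℕ} [Fact p.Prime] {H M W Y S A : Subgroup G}
    (hWn : H ≤ normalizer (W : Set G)) (hAW : A ≤ W) (hWY : W ≤ Y) (hYM : Y ≤ M)
    (hS : IsSylowIn p S Y) (hA : IsPGroup p A)
    (hkey : ∀ g : G, cj g A ≤ S → g ∈ M) : H ≤ M := by
  intro h hh
  have h1 : cj h A ≤ W := by
    calc cj h A ≤ cj h W := cj_mono hAW
      _ = W := cj_eq_self_of_mem_normalizer (hWn hh)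
  obtain ⟨y, hy, hle⟩ := hS.exists_conj_ge (IsPGroup_cj hA h) (h1.trans hWY)
  have h2 : cj (y⁻¹ * h) A ≤ S := by rw [cj_mul]; exact le_cj_iff.mp hle
  have h3 := hkey _ h2
  have : h = y * (y⁻¹ * h) := by group
  rw [this]; exact mul_mem (hYM hy) h3

theorem isSylowIn_sup [Finite G] {p : ℕ} [hp : Fact p.Prime] {Z K : Subgroup G} (hZ : IsPGroup p Z)
    (hK : (Nat.card K).Coprime p) (hZK : Z ≤ normalizer (K : Set G)) : IsSylowIn p Z (K ⊔ Z) := by
  refine ⟨le_sup_right, hZ, fun Q hQ hZQ hQle => le_antisymm ?_ hZQ⟩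
  intro x hx
  obtain ⟨k, hk, z, hz, rfl⟩ := (Helper22.mem_sup_of_le_normalizer hZK).mp (hQle hx)
  have hkQ : k ∈ Q := by
    have := mul_mem hx (inv_mem (hZQ hz))
    simpa using this
  have hbot : Q ⊓ K = ⊥ := by
    apply inf_eq_bot_of_coprime
    obtain ⟨n, hn⟩ := hQ.exists_card_eq
    rw [hn]
    exact (Nat.Coprime.pow_right n hK).symm
  have : k ∈ Q ⊓ K := mem_inf.mpr ⟨hkQ, hk⟩
  rw [hbot, mem_bot] at this
  rw [this, one_mul]; exact hz

theorem le_of_forall_sylow [Finite G] {Y Z : Subgroup G}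
    (h : ∀ q : ℕ, q.Prime → ∃ S, IsSylowIn q S Y ∧ S ≤ Z) : Y ≤ Z := by
  have h1 : (Y ⊓ Z).relIndex Y = 1 := by
    by_contra hne
    obtain ⟨q, hq, hdvd⟩ := Nat.exists_prime_and_dvd hne
    haveI : Fact q.Prime := ⟨hq⟩
    obtain ⟨S, hS, hSZ⟩ := h q hq
    apply hS.not_dvd_relIndex
    rw [← relIndex_mul_relIndex S (Y ⊓ Z) Y (le_inf hS.le hSZ) inf_le_left]
    exact hdvd.mul_left _
  exact (relIndex_eq_one.mp h1).trans inf_le_right

/-- In a solvable group `M`, a `p'`-subgroup normalized by a Sylow `p`-subgroup lies in `O_{p'}(M)`. -/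
theorem le_coreOf_of_sylow_invariant [Finite G] {p : ℕ} [hp : Fact p.Prime] (hp2 : p ≠ 2)
    {M P Y : Subgroup G} (hMs : Group.IsSolvable M) (hP : IsSylowIn p P M) (hYM : Y ≤ M)
    (hY : (Nat.card Y).Coprime p) (hPY : P ≤ normalizer (Y : Set G)) : Y ≤ Helper23.coreOf p M := by
  have key := Helper9.le_pPrimeCore_of_invariant (X := M)
    (Helper23.isPConstrained_of_isSolvable p M) (fun h => absurd h hp2)
    (P.subgroupOf M) (Y.subgroupOf M) hP.isPGroup.comap_subtype ?_ ?_ ?_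
  · have h4 := map_mono (f := M.subtype) key
    rwa [map_subgroupOf_eq_of_le hYM] at h4
  · intro x hx hxp
    have h1 : zpowers x ≤ normalizer ((P.subgroupOf M : Subgroup M) : Set M) := by
      rw [zpowers_le]
      exact centralizer_le_normalizer _ hx
    have h2 : IsPGroup p ((zpowers x ⊔ P.subgroupOf M : Subgroup M)) :=
      hxp.to_sup_of_normal_right' hP.isPGroup.comap_subtype h1
    have h3 := hP.toSylow.3 h2 le_sup_right
    have h4 : x ∈ (zpowers x ⊔ P.subgroupOf M : Subgroup M) := mem_sup_left (mem_zpowers x)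
    rw [h3] at h4
    exact h4
  · rw [Nat.card_congr (subgroupOfEquivOfLe hYM).toEquiv]; exact hY
  · exact Helper23.le_normalizer_subgroupOf hPY

end Cfsg.Agent.Lib.Helper23U
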