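import Cfsg.Agent.Lib.Helper23.Uniq1
import Cfsg.Agent.Lib.Helper22.PiCoreOf
import Cfsg.Agent.Lib.Helper22.CoreOf
import Cfsg.Agent.S1393
import Cfsg.Agent.S1395
import Cfsg.Agent.S1396

set_option autoImplicit false

/-! BG §9: consequence of the transitivity theorems for `A ∈ SCN₃(P)`. -/

namespace Cfsg.Agent.Lib.Helper23U

open Subgroup Cfsg Cfsg.Agent.Lib Cfsg.Agent.Lib.Helper47

variable {G : Type*} [Group G]

theorem isPGroup_ne_top (hG : IsMinSimpleOddOrder G) [Finite G] {p : ℕ} [Fact p.Prime] {P : Subgroup G}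
    (hP : IsPGroup p P) : P ≠ ⊤ := by
  intro h
  have : IsSimpleGroup G := hG.2.1
  have h1 : IsPGroup p G := by
    intro g
    obtain ⟨k, hk⟩ := hP ⟨g, h ▸ mem_top g⟩
    exact ⟨k, congrArg Subtype.val hk⟩
  have h2 : Group.IsNilpotent G := h1.isNilpotent
  have h3 : Group.IsSolvable G := inferInstance
  apply hG.2.2.1
  exact ⟨⟨IsSimpleGroup.comm_iff_isSolvable.mpr h3⟩⟩

theorem not_dvd_of_coprime {p n : ℕ} [hp : Fact p.Prime] (h : n.Coprime p) : ¬ p ∣ n := by
  intro hd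
  have := Nat.dvd_gcd hd (dvd_refl p)
  rw [h] at this
  exact hp.out.one_lt.ne' (Nat.dvd_one.mp this)

theorem coprime_of_not_dvd {p n : ℕ} [hp : Fact p.Prime] (h : ¬ p ∣ n) : n.Coprime p :=
  ((Nat.Prime.coprime_iff_not_dvd hp.out).mpr h).symm

theorem coprime_of_isPGroup [Finite G] {p q : ℕ} [hp : Fact p.Prime] [hq : Fact q.Prime] (hqp : q ≠ p)
    {Q : Subgroup G} (hQ : IsPGroup q Q) : (Nat.card Q).Coprime p := by
  obtain ⟨n, hn⟩ := hQ.exists_card_eq
  rw [hn]
  exact Nat.Coprime.pow_left n ((Nat.coprime_primes hq.out hp.out).mpr hqp)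

/-- If `K` contains all `P`-invariant `p'`-subgroups and `A ∈ SCN₃(P)`, then `K` contains all
`A`-invariant `p'`-subgroups. -/
theorem le_of_scn_invariant [Finite G] (hG : IsMinSimpleOddOrder G) {p : ℕ} [hp : Fact p.Prime]
    (P : Sylow p G) {A K : Subgroup G} (hA : IsSCN (P : Subgroup G) A) (hA3 : ¬ PRankLE p 2 A)
    (hK : ∀ Y : Subgroup G, (Nat.card Y).Coprime p → (P : Subgroup G) ≤ normalizer (Y : Set G) → Y ≤ K)
    {Y : Subgroup G} (hY : (Nat.card Y).Coprime p) (hAY : A ≤ normalizer (Y : Set G)) : Y ≤ K := by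
  have hAp : IsPGroup p A := P.2.to_le hA.1
  have hAcen : A ≤ centralizer (A : Set G) := by
    have := hA.2.2.ge
    exact this.trans inf_le_right
  have hAc : IsMulCommutative A := by
    refine ⟨⟨fun x y => ?_⟩⟩
    apply Subtype.ext
    exact ((mem_centralizer_iff.mp (hAcen x.2)) y y.2).symm
  have hA1 : ¬ PRankLE p 1 A := by
    intro h
    apply hA3
    intro E hE hEe
    exact (h E hE hEe).trans (Nat.pow_le_pow_right hp.out.pos (by norm_num))
  have hAne : A ≠ ⊥ := by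
    intro h
    apply hA3
    intro E hE hEe
    have : Nat.card A = 1 := by rw [h]; exact card_bot
    have h2 : Nat.card E ≤ Nat.card A := Nat.card_le_card_of_injective _ E.subtype_injective
    rw [this] at h2
    exact h2.trans (Nat.one_le_pow _ _ hp.out.pos)
  have hpA : p ∣ Nat.card A := by
    obtain ⟨n, hn⟩ := hAp.exists_card_eq
    rw [hn]
    rcases Nat.eq_zero_or_pos n with h0 | h0
    · exfalso
      apply hAne
      rw [h0, pow_zero] at hn
      exact (card_eq_one).mp hn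
    · exact dvd_pow_self p h0.ne'
  have hpG : p ∣ Nat.card G := hpA.trans (card_subgroup_dvd_card A)
  have hTH : TransitivityHypothesis A :=
    Cfsg.Agent.S1396.result hG p hpG A hAp hAc (Or.inr ⟨P, hA, hA1⟩)
  have hZ : ¬ RankLE 2 ↥(A ⊓ centralizer (A : Set G)) := by
    rw [inf_eq_left.mpr hAcen]
    intro h
    exact hA3 (h p hp.out)
  have hPtop : (P : Subgroup G) ≠ ⊤ := isPGroup_ne_top hG P.2
  have hPπ : ∀ r : ℕ, r.Prime → r ∣ Nat.card (P : Subgroup G) → r ∣ Nat.card A := by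
    intro r hr hd
    obtain ⟨n, hn⟩ := P.2.exists_card_eq
    rw [hn] at hd
    have := (Nat.prime_dvd_prime_iff_eq hr hp.out).mp (hr.dvd_of_dvd_pow hd)
    rw [this]; exact hpA
  have hsn : (A.subgroupOf (P : Subgroup G)).IsSubnormal :=
    ((normal_subgroupOf_iff_le_normalizer hA.1).mpr hA.2.1).isSubnormal
  apply le_of_forall_sylow
  intro q hq
  by_cases hqp : q = p
  · subst hqp
    refine ⟨⊥, isSylowIn_of_not_dvd_relIndex bot_le IsPGroup.of_bot ?_, bot_le⟩
    rw [relIndex_bot_left]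
    exact not_dvd_of_coprime hY
  · have : Fact q.Prime := ⟨hq⟩
    have hqA : ¬ q ∣ Nat.card A := by
      intro hd
      obtain ⟨n, hn⟩ := hAp.exists_card_eq
      rw [hn] at hd
      exact hqp ((Nat.prime_dvd_prime_iff_eq hq hp.out).mp (hq.dvd_of_dvd_pow hd))
    have htr := Cfsg.Agent.S1393.result hG A hTH hZ q hq hqA
    have h95 := Cfsg.Agent.S1395.result hG A hTH q hq hqA P hPtop hPπ hA.1 hsn htr
    obtain ⟨S, hS, hAS⟩ := Helper22.exists_invariant_isSylowIn A Y hAp (not_dvd_of_coprime hY) hAY q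
    refine ⟨S, isSylowIn_iff_exists.mpr hS, ?_⟩
    have hSq : IsPGroup q S := hS.isPGroup
    obtain ⟨Q₁, hQ₁, hSQ₁⟩ := Helper23.exists_maxInvQ_ge (A := A) (q := q) (U := S) ⟨hSq, hAS⟩
    obtain ⟨Q₀, hQ₀, -⟩ := Helper23.exists_maxInvQ_ge (A := (P : Subgroup G)) (q := q) (U := ⊥)
      ⟨IsPGroup.of_bot, by rw [normalizer_eq_top (H := (⊥ : Subgroup G))]; exact le_top⟩
    have hQ₀K : Q₀ ≤ K := hK Q₀ (coprime_of_isPGroup hqp hQ₀.1.1) hQ₀.1.2
    have hQ₀A := h95.2.2.1 (Helper23.mem_maxInvSubgroups_top_iff.mpr hQ₀)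
    obtain ⟨k, hk, hkQ⟩ := htr Q₀ hQ₀A Q₁ (Helper23.mem_maxInvSubgroups_top_iff.mpr hQ₁)
    have hCK : piCoreOf (primesNotDvd (Nat.card A)) (centralizer (A : Set G)) ≤ K := by
      apply hK
      · apply coprime_of_not_dvd
        intro hd
        have := Helper23.piCoreOf_primes (primesNotDvd (Nat.card A)) (centralizer (A : Set G)) p hp.out hd
        exact this.2 hpA
      · exact hA.2.1.trans ((Helper22.normalizer_le_normalizer_centralizer A).trans
          (Helper22.normalizer_le_normalizer_piCoreOf _ _))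
    refine hSQ₁.trans ?_
    rw [hkQ]
    rintro _ ⟨x, hx, rfl⟩
    exact mul_mem (mul_mem (hCK hk) (hQ₀K hx)) (inv_mem (hCK hk))

end Cfsg.Agent.Lib.Helper23U
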